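import Cfsg.Agent.H2.DegB
import Cfsg.Agent.H9.TwoPrimes
import Cfsg.Agent.H8.DihedralIso
import Cfsg.Agent.H8.PGroupBasic

/-! Groups of order `12096` whose element orders divide `12`, `8` or `7`: the `7`-local structure
and the normal subgroups. -/

set_option autoImplicit false
set_option linter.style.haveILetI false

namespace CfsgH2.G22

open Subgroup MulAction Cfsg CfsgL

universe u

variable {G : Type u} [Group G]

/-- the element orders divide `12`, `8` or `7` -/
def Ord (G : Type u) [Group G] : Prop := ∀ g : G, orderOf g ∣ 12 ∨ orderOf g ∣ 8 ∨ orderOf g ∣ 7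

theorem Ord.sub (ho : Ord G) (H : Subgroup G) : Ord H := fun g => by
  simpa using ho (g : G)

theorem Ord.comm7 (ho : Ord G) {g h : G} (hg : orderOf g = 7) (hc : Commute g h) : h ^ 7 = 1 := by
  by_cases h7 : orderOf h ∣ 7
  · exact orderOf_dvd_iff_pow_eq_one.1 h7
  have h1 : (orderOf g).Coprime (orderOf h) := by
    rw [hg]
    rcases ho h with h2 | h2 | h2
    · exact Nat.Coprime.coprime_dvd_right h2 (by norm_num)
    · exact Nat.Coprime.coprime_dvd_right h2 (by norm_num)
    · exact absurd h2 h7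
  have h2 := ho (g * h)
  rw [hc.orderOf_mul_eq_mul_orderOf_of_coprime h1, hg] at h2
  rcases h2 with h2 | h2 | h2
  · exact absurd ((Dvd.intro _ rfl).trans h2) (by norm_num)
  · exact absurd ((Dvd.intro _ rfl).trans h2) (by norm_num)
  · exact absurd ((Dvd.intro_left _ rfl).trans h2) h7

theorem Ord.eq_one (ho : Ord G) {g h : G} (hg : orderOf g = 7) (hc : Commute g h) {n : ℕ}
    (hn : h ^ n = 1) (h7 : n.Coprime 7) : h = 1 := by
  have := Nat.dvd_gcd (orderOf_dvd_of_pow_eq_one hn) (orderOf_dvd_of_pow_eq_one (ho.comm7 hg hc))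
  rw [h7] at this
  exact orderOf_eq_one_iff.1 (Nat.dvd_one.1 this)

theorem Ord.cube (ho : Ord G) {g : G} {k : ℕ} (hg : g ^ 3 ^ k = 1) : g ^ 3 = 1 := by
  haveI : Fact (Nat.Prime 3) := ⟨Nat.prime_three⟩
  obtain ⟨j, -, hj⟩ := (Nat.dvd_prime_pow Nat.prime_three).1 (orderOf_dvd_of_pow_eq_one hg)
  rw [← orderOf_dvd_iff_pow_eq_one, hj]
  have := ho g
  rw [hj] at this
  rcases j with _ | _ | j
  · norm_num
  · norm_num
  have h9 : 9 ∣ 3 ^ (j + 1 + 1) := ⟨3 ^ j, by ring⟩
  rcases this with h | h | h <;> exact absurd (h9.trans h) (by norm_num)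

variable [Finite G]

theorem mem_of_seven (hd : Nat.card G ∣ 12096) (K : Subgroup G) [K.Normal] (h7 : 7 ∣ Nat.card K)
    {s : G} (hs : orderOf s = 7) : s ∈ K := by
  have h1 : K.index.Coprime (orderOf s) := by
    rw [hs, Nat.coprime_comm, Nat.Prime.coprime_iff_not_dvd (by norm_num)]
    intro h
    have := (Nat.mul_dvd_mul h7 h).trans (K.card_mul_index ▸ hd)
    norm_num at this
  obtain ⟨m, hm⟩ := exists_pow_eq_self_of_coprime h1
  rw [← hm]
  exact K.pow_mem (K.pow_index_mem s) m

theorem Ord.card_two (ho : Ord G) (h7G : 7 ∣ Nat.card G) (hd : Nat.card G ∣ 12096)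
    (K : Subgroup G) [K.Normal] (h7 : ¬ 7 ∣ Nat.card K) :
    Nat.card K = 1 ∨ Nat.card K = 8 ∨ Nat.card K = 64 := by
  have hi : 7 ∣ K.index := ((Nat.Prime.dvd_mul (by norm_num)).1
    (K.card_mul_index ▸ h7G)).resolve_left h7
  have key : ∀ p : ℕ, p.Prime → p ≠ 7 → p ^ (Nat.card K).factorization p ≡ 1 [MOD 7] := by
    intro p hp h
    by_contra h1
    obtain ⟨g, hg⟩ := CfsgH9.exists_orderOf_eq_mul K hp (by norm_num) h hi h1
    have h2 := ho g
    rw [hg] at h2
    rcases h2 with h2 | h2 | h2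
    · exact absurd ((Dvd.intro_left _ rfl).trans h2) (by norm_num)
    · exact absurd ((Dvd.intro_left _ rfl).trans h2) (by norm_num)
    · exact h ((Nat.prime_dvd_prime_iff_eq hp (by norm_num)).1 ((Dvd.intro _ rfl).trans h2))
  have h1 : Nat.card K ∣ 2 ^ 6 * 3 ^ 3 := Nat.Coprime.dvd_of_dvd_mul_right
    ((Nat.Prime.coprime_iff_not_dvd (by norm_num)).2 h7).symm (K.card_subgroup_dvd_card.trans hd)
  obtain ⟨x, y, hx, hy, e⟩ := (Nat.dvd_mul).1 h1
  obtain ⟨a, ha, rfl⟩ := (Nat.dvd_prime_pow Nat.prime_two).1 hx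
  obtain ⟨b, hb, rfl⟩ := (Nat.dvd_prime_pow Nat.prime_three).1 hy
  have h2 := key 2 Nat.prime_two (by norm_num)
  have h3 := key 3 Nat.prime_three (by norm_num)
  rw [← e, Nat.factorization_mul (by positivity) (by positivity), Nat.prime_two.factorization_pow,
    Nat.prime_three.factorization_pow] at h2 h3
  simp only [Finsupp.coe_add, Pi.add_apply, Finsupp.single_apply] at h2 h3
  norm_num at h2 h3
  rw [← e]
  clear key h1 e hx hy
  interval_cases a <;> interval_cases b <;> simp_all [Nat.ModEq]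

theorem Ord.normal_card (ho : Ord G) (h189 : 189 ∣ Nat.card G) (hd : Nat.card G ∣ 12096)
    (K : Subgroup G) [K.Normal] {s : G} (hs : orderOf s = 7) :
    s ∈ K ∨ K = ⊥ ∨ Nat.card K = 64 := by
  by_cases h7 : 7 ∣ Nat.card K
  · exact Or.inl (mem_of_seven hd K h7 hs)
  have h7G : 7 ∣ Nat.card G := (by norm_num : 7 ∣ 189).trans h189
  rcases ho.card_two h7G hd K h7 with h | h | h
  · exact Or.inr (Or.inl (K.eq_bot_of_card_eq h))
  swap
  · exact Or.inr (Or.inr h)
  exfalso
  let f : G →* Equiv.Perm K := (toPermHom (MulAut K) K).comp MulAut.conjNormal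
  by_cases h1 : 7 ∣ Nat.card f.ker
  · have h2 : f s = 1 := mem_of_seven hd _ h1 hs
    have : K = ⊥ := eq_bot_iff.2 fun k hk => by
      have h3 := congrArg Subtype.val (DFunLike.congr_fun h2 ⟨k, hk⟩)
      change s * k * s⁻¹ = k at h3
      exact ho.eq_one hs (mul_inv_eq_iff_eq_mul.1 h3) (n := 8)
        (h ▸ congrArg Subtype.val (pow_card_eq_one' (x := (⟨k, hk⟩ : K)))) (by norm_num)
    rw [this, card_bot] at h
    omega
  have h2 := f.ker.card_mul_index
  have h3 : f.ker.index ∣ 40320 := by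
    rw [index_ker]
    have := f.range.card_subgroup_dvd_card
    rwa [Nat.card_perm, h] at this
  have h4 : 27 ∣ Nat.card f.ker * f.ker.index := h2 ▸ (by norm_num : 27 ∣ 189).trans h189
  have h5 : 27 ∣ f.ker.index := by
    rcases ho.card_two h7G hd _ h1 with h | h | h <;> rw [h] at h4 <;>
      exact Nat.Coprime.dvd_of_dvd_mul_left (by norm_num) h4
  exact absurd (h5.trans h3) (by norm_num)

theorem Ord.card_cent (ho : Ord G) (hd : Nat.card G ∣ 12096) {s : G} (hs : orderOf s = 7) :
    centralizer ({s} : Set G) = zpowers s := by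
  haveI : Fact (Nat.Prime 7) := ⟨by norm_num⟩
  have hle : zpowers s ≤ centralizer {s} := by
    rintro _ ⟨k, rfl⟩
    exact mem_centralizer_singleton_iff.2 ((Commute.refl s).zpow_left k)
  have hp : IsPGroup 7 (centralizer ({s} : Set G)) := fun g => ⟨1, Subtype.ext
    (by simpa using ho.comm7 hs (mem_centralizer_singleton_iff.1 g.2).symm)⟩
  obtain ⟨k, hk⟩ := hp.exists_card_eq
  have h1 := (centralizer ({s} : Set G)).card_subgroup_dvd_card.trans hd
  refine (eq_of_le_of_card_ge hle ?_).symm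
  rw [Nat.card_zpowers, hs, hk]
  rw [hk] at h1
  rcases k with _ | _ | k
  · norm_num
  · norm_num
  exact absurd ((show 49 ∣ 7 ^ (k + 1 + 1) from ⟨7 ^ k, by ring⟩).trans h1) (by norm_num)

omit [Finite G] in
theorem conj_pow_iter {g x : G} {r : ℕ} (h : g * x * g⁻¹ = x ^ r) (j : ℕ) :
    g ^ j * x * (g ^ j)⁻¹ = x ^ r ^ j := by
  induction j with
  | zero => simp
  | succ j ih =>
    rw [pow_succ', pow_succ', pow_mul, ← h, conj_pow, ← ih]
    group

/-- the basic data -/
structure Dat (G : Type u) [Group G] where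
  s : G
  t : G
  card : Nat.card G = 12096
  ord : Ord G
  hs : orderOf s = 7
  ht : t * s * t⁻¹ = s ^ 3
  ht6 : t ^ 6 = 1

theorem exists_dat (hG : Nat.card G = 12096) (ho : Ord G) : Nonempty (Dat G) := by
  haveI : Fact (Nat.Prime 7) := ⟨by norm_num⟩
  obtain ⟨s, hs⟩ := exists_prime_orderOf_dvd_card' (G := G) 7 (by rw [hG]; norm_num)
  have hP : Nat.card (zpowers s) = 7 ^ 1 := by rw [Nat.card_zpowers, hs, pow_one]
  have hi : (zpowers s).index = 1728 := by
    have := (zpowers s).card_mul_index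
    rw [hP, hG] at this
    omega
  let P : Sylow 7 G := (IsPGroup.of_card hP).toSylow (by rw [hi]; norm_num)
  have h1 : (normalizer (zpowers s : Set G)).index ≡ 1 [MOD 7] :=
    P.card_eq_index_normalizer ▸ card_sylow_modEq_one 7 G
  let f := (zpowers s).normalizerMonoidHom
  have hA : Nat.card (MulAut (zpowers s)) = 6 := by
    rw [IsCyclic.card_mulAut, hP]; decide
  have hk : Nat.card f.ker = 7 := by
    rw [normalizerMonoidHom_ker, show centralizer (zpowers s : Set G) = zpowers s by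
      rw [zpowers_eq_closure, centralizer_closure, ho.card_cent hG.dvd hs, zpowers_eq_closure],
      Nat.card_congr (subgroupOfEquivOfLe le_normalizer).toEquiv, hP, pow_one]
  have h2 := f.ker.card_mul_index
  have h3 := (normalizer (zpowers s : Set G)).card_mul_index
  have h4 := f.range.card_subgroup_dvd_card
  rw [hk, index_ker] at h2
  rw [← h2, hG] at h3
  rw [hA] at h4
  have h5 : Nat.card f.range = 6 := by
    have := Nat.le_of_dvd (by norm_num) h4
    unfold Nat.ModEq at h1
    generalize Nat.card f.range = k at *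
    interval_cases k <;> omega
  have h6 : f.range = ⊤ := eq_top_of_card_eq _ (h5.trans hA.symm)
  letI : CommGroup (zpowers s) := IsCyclic.commGroup
  obtain ⟨t, ht⟩ := MonoidHom.range_eq_top.1 h6 (MulEquiv.ofBijective (powMonoidHom 3)
    (powCoprime (G := zpowers s) (n := 3) (by rw [hP]; norm_num)).bijective)
  have h7 := congrArg Subtype.val (DFunLike.congr_fun ht ⟨s, mem_zpowers s⟩)
  change (t : G) * s * (t : G)⁻¹ = s ^ 3 at h7
  have h8 : ∀ k, s ^ k = s ^ (k % 7) := fun k => by rw [← hs, pow_mod_orderOf]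
  refine ⟨⟨s, t ^ 7, hG, ho, hs, by rw [conj_pow_iter h7, h8]; rfl, ?_⟩⟩
  rw [← pow_mul, mul_comm, pow_mul]
  refine ho.comm7 hs (mul_inv_eq_iff_eq_mul.1 ?_).symm
  rw [conj_pow_iter h7, h8]
  exact pow_one s

end CfsgH2.G22
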