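import Mathlib

/-! The arithmetic of the principal `7`-block of a group of order `12096`. -/

set_option autoImplicit false
set_option maxRecDepth 100000

namespace CfsgH2.G22

/-- the value at an element of order `7` -/
def A (d : ℤ) : ℤ := (d + 3) % 7 - 3

/-- the degrees -/
def DL : List ℤ := [1, 2, 6, 8, 9, 12, 16, 27, 36, 48, 54, 64, 72, 96]

/-- a test on all choices of values with column sum `-1` -/
def pAll (L : ℤ → List ℤ) : List ℤ → ℤ → (List ℤ → Bool) → Bool
  | [], a, p => a != -1 || p []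
  | d :: ds, a, p => (L d).all fun x => pAll L ds (a + A d * x) fun v => p (x :: v)

theorem pAll_map {ι : Type*} (L : ℤ → List ℤ) (l : List ι) (d f : ι → ℤ)
    (h : ∀ i ∈ l, f i ∈ L (d i)) (a : ℤ) (ha : a + (l.map fun i => A (d i) * f i).sum = -1)
    (p : List ℤ → Bool) (hp : pAll L (l.map d) a p = true) : p (l.map f) = true := by
  induction l generalizing p a with
  | nil => simpa [pAll, show a = -1 by simpa using ha] using hp
  | cons i l ih =>
    exact ih (fun j hj => h j (List.mem_cons_of_mem _ hj)) _ (by rw [← ha]; simp [add_assoc]) _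
      (List.all_eq_true.1 hp _ (h i List.mem_cons_self))

/-- a test on all sorted lists of degrees of given length -/
def sAll : ℕ → ℤ → ℤ → ℤ → (List ℤ → Bool) → Bool
  | 0, _, w, a, p => !(w == 6 && a == -1) || p []
  | n + 1, m, w, a, p => decide (6 < w) || (DL.filter fun y => decide (m ≤ y)).all fun d =>
      sAll n d (w + A d * A d) (a + A d * d) fun v => p (d :: v)

theorem sAll_sorted (v : List ℤ) (h : ∀ x ∈ v, x ∈ DL) (hs : v.Pairwise (· ≤ ·)) (m w a : ℤ)
    (hm : ∀ x ∈ v, m ≤ x) (hw : w + (v.map fun d => A d * A d).sum = 6)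
    (ha : a + (v.map fun d => A d * d).sum = -1)
    (p : List ℤ → Bool) (hp : sAll v.length m w a p = true) : p v = true := by
  induction v generalizing m w a p with
  | nil => simpa [sAll, show a = -1 by simpa using ha, show w = 6 by simpa using hw] using hp
  | cons x v ih =>
    rw [List.pairwise_cons] at hs
    have h0 : 0 ≤ ((x :: v).map fun d => A d * A d).sum := List.sum_nonneg fun y hy => by
      obtain ⟨d, -, rfl⟩ := List.mem_map.1 hy
      exact mul_self_nonneg _
    rw [List.length_cons, sAll, decide_eq_false (by omega), Bool.false_or] at hp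
    exact ih (fun y hy => h y (List.mem_cons_of_mem _ hy)) hs.2 _ _ _ hs.1
      (by rw [← hw]; simp [add_assoc]) (by rw [← ha]; simp [add_assoc]) _
      (List.all_eq_true.1 hp _ (List.mem_filter.2 ⟨h x List.mem_cons_self,
        decide_eq_true (hm x List.mem_cons_self)⟩))

/-- the class multiplication sums -/
def S2 : List ℤ → List ℤ → List ℤ → ℤ
  | d :: ds, u :: us, v :: vs => A d * u * v * (1728 / d) + S2 ds us vs
  | _, _, _ => 0

theorem S2_map {ι : Type*} (l : List ι) (d u v : ι → ℤ) : S2 (l.map d) (l.map u) (l.map v) =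
    (l.map fun i => A (d i) * u i * v i * (1728 / d i)).sum := by
  induction l with
  | nil => rfl
  | cons i l ih => simp [S2, ih]

/-- an interval -/
def RR (n : ℕ) : List ℤ := (List.range (2 * n + 1)).map fun k : ℕ => (k : ℤ) - n

theorem mem_RR {n : ℕ} {x : ℤ} (h1 : -(n : ℤ) ≤ x) (h2 : x ≤ n) : x ∈ RR n :=
  List.mem_map.2 ⟨(x + n).toNat, List.mem_range.2 (by omega), by omega⟩

/-- the values at the involution inverting an element of order `7` -/
def XL (d : ℤ) : List ℤ :=
  if d = 1 then [-1, 1] else if d = 2 ∨ d = 8 then [-2, 0, 2] else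
  if d = 9 ∨ d = 27 then [-3, -1, 1, 3] else if d = 16 then [-4, -2, 0, 2, 4] else
  if d = 36 ∨ d = 48 ∨ d = 54 then [-6, -4, -2, 0, 2, 4, 6] else
  if d = 72 ∨ d = 96 then [-12, -10, -8, -6, -4, -2, 0, 2, 4, 6, 8, 10, 12] else [0]

theorem mem_XL : ∀ d ∈ DL, ∀ x ∈ RR 16, (d + 6 * A d + 7 * x) % 14 = 0 →
    0 ≤ d + 6 * A d + 7 * x → 0 ≤ d + 6 * A d - 7 * x → (d = 64 → x = 0) → x ∈ XL d := by
  decide +kernel

/-- the values at a `2`-central involution -/
def YL (c d : ℤ) : List ℤ := (RR 41).filter fun y => decide ((c * y) % d = 0 ∧ (d + y) % 2 = 0 ∧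
  c * (y * y) ≤ 12096 ∧ y * y ≤ d * d ∧ (y * y = d * d → d ≤ 2) ∧ (d = 64 → y = 0))

/-- the centralizer orders -/
def CL : List ℤ := [6, 12, 18, 24, 36, 48, 54, 72, 96, 108, 144, 192, 216, 288, 432, 576, 864, 1728]

/-- the outcome -/
def Out (ds xs ys : List ℤ) : Prop := (1, -1, 1) ∈ ds.zip (xs.zip ys) ∧ ds.count 1 = 1 ∧
  (ds = [1, 6, 6, 27, 27, 64] ∨ (ds.zip ys).count (6, -2) = 1)

instance (ds xs ys : List ℤ) : Decidable (Out ds xs ys) := by unfold Out; infer_instance

/-- the test -/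
def leaf (ds : List ℤ) : Bool :=
  pAll XL ds 0 fun xs => CL.all fun c => !(1728 + S2 ds xs xs == c * c) || (c % 64 != 0 &&
    [7, 21, 63, 189].all fun k => pAll (YL k) ds 0 fun ys =>
      !(S2 ds ys ys == -1728 && S2 ds ys xs == -1728) || decide (Out ds xs ys))

theorem leaf_all : ∀ n, n < 7 → sAll n 0 0 0 leaf = true := by decide +kernel

theorem enum {ι : Type*} (l : List ι) (d x y : ι → ℤ) {c k : ℤ} (hd : ∀ i ∈ l, d i ∈ DL)
    (hs : (l.map d).Pairwise (· ≤ ·)) (hl : l.length < 7) (hx : ∀ i ∈ l, x i ∈ XL (d i))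
    (h1 : (l.map fun i => A (d i) * A (d i)).sum = 6)
    (h2 : (l.map fun i => A (d i) * d i).sum = -1) (h3 : (l.map fun i => A (d i) * x i).sum = -1)
    (hc : c ∈ CL) (h4 : 1728 + S2 (l.map d) (l.map x) (l.map x) = c * c) :
    c % 64 ≠ 0 ∧ (k ∈ [7, 21, 63, 189] → (∀ i ∈ l, y i ∈ YL k (d i)) →
      (l.map fun i => A (d i) * y i).sum = -1 → S2 (l.map d) (l.map y) (l.map y) = -1728 →
      S2 (l.map d) (l.map y) (l.map x) = -1728 → Out (l.map d) (l.map x) (l.map y)) := by
  have h := sAll_sorted (l.map d) (by simpa using hd) hs 0 0 0 (fun x hx => by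
      obtain ⟨i, hi, rfl⟩ := List.mem_map.1 hx
      exact (show ∀ d ∈ DL, 0 ≤ d by decide) _ (hd i hi))
    (by rw [List.map_map, zero_add]; exact h1) (by rw [List.map_map, zero_add]; exact h2)
    leaf (leaf_all _ (by simpa using hl))
  replace h := pAll_map _ l d x hx 0 (by rw [zero_add, h3]) _ h
  replace h := List.all_eq_true.1 h c hc
  simp only [h4, beq_self_eq_true, Bool.not_true, Bool.false_or, Bool.and_eq_true, bne_iff_ne] at h
  refine ⟨h.1, fun hk hy h5 h6 h7 => ?_⟩
  replace h := List.all_eq_true.1 h.2 k hk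
  replace h := pAll_map _ l d y hy 0 (by rw [zero_add, h5]) _ h
  simpa [h6, h7] using h

theorem mem_DL : ∀ n : ℕ, n < 110 → n ∣ 12096 → n % 7 = 1 ∨ n % 7 = 2 ∨ n % 7 = 5 ∨ n % 7 = 6 →
    (n : ℤ) ∈ DL := by decide +kernel

theorem mem_CL : ∀ n : ℕ, n < 1729 → 6 ∣ n → n ∣ 1728 → (n : ℤ) ∈ CL := by decide +kernel

end CfsgH2.G22
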