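import Cfsg.Agent.H2.G22A
import Cfsg.Agent.H2.G22B

/-! Groups of order `12096` whose element orders divide `12`, `8` or `7`: the characters not
vanishing at an element of order `7`. -/

set_option autoImplicit false
set_option linter.style.haveILetI false

namespace CfsgH2.G22

open Subgroup MulAction Cfsg CfsgL CfsgH8
open scoped ComplexConjugate

universe u

variable {G : Type u} [Group G]

theorem dih_sum [Finite G] {χ : G → ℂ} (hχ : IsCharacter G χ) {n : ℕ} [NeZero n] {x y : G}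
    (hx : orderOf x = n) (hy : y ^ 2 = 1) (h : y * x * y⁻¹ = x⁻¹) {ε : ℂ} (hε : ε = 1 ∨ ε = -1) :
    ∃ m : ℕ, ∑ k : ZMod n, χ (zmodPow x k) + ε * ∑ k : ZMod n, χ (y * zmodPow x k) =
      2 * n * m := by
  have h2 : ε * ε = 1 := by rcases hε with rfl | rfl <;> simp
  let l : DihedralGroup n →* ℂ :=
    { toFun := fun g => match g with
        | DihedralGroup.r _ => 1
        | DihedralGroup.sr _ => ε
      map_one' := rfl
      map_mul' := by rintro (i | i) (j | j) <;> simp [h2] }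
  obtain ⟨m, hm⟩ := char_inner_nat (char_comp (dihedralHom hx hy h) hχ) (irr_isChar (irr_of_hom l))
  have h1 := sum_mul_conj_eq (fun g => χ (dihedralHom hx hy h g)) l
  rw [hm, DihedralGroup.nat_card, ← DihedralGroup.equivSum.symm.sum_comp,
    Fintype.sum_sum_type] at h1
  refine ⟨m, ?_⟩
  rw [Finset.mul_sum, show (2 * n * m : ℂ) = ((2 * n : ℕ) : ℂ) * m by push_cast; ring, ← h1]
  congr 1 <;> refine Finset.sum_congr rfl fun k _ => ?_
  · change _ = χ (zmodPow x k) * conj 1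
    simp
  · change _ = χ (y * zmodPow x k) * conj ε
    rcases hε with rfl | rfl <;> simp

/-- integral character values -/
noncomputable def iv (χ : IrrCharacter G) (g : G) : ℤ := ⌊(χ.1 g).re⌋

theorem iv_eq {χ : IrrCharacter G} {g : G} {m : ℤ} (h : χ.1 g = m) : iv χ g = m := by
  simp [iv, h]

theorem iv_cast {χ : IrrCharacter G} {g : G} (h : ∃ m : ℤ, χ.1 g = m) : χ.1 g = iv χ g := by
  obtain ⟨m, h⟩ := h
  rw [iv_eq h, h]

theorem iv_invol [Finite G] (χ : IrrCharacter G) {g : G} (h : g * g = 1) : χ.1 g = iv χ g := by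
  refine iv_cast (char_int_of_pow_eq (irr_isChar χ.2) g fun k hk => ?_)
  have h1 : orderOf g ∣ 2 := orderOf_dvd_of_pow_eq_one (by rwa [pow_two])
  rcases (Nat.dvd_prime Nat.prime_two).1 h1 with h2 | h2
  · rw [orderOf_eq_one_iff.1 h2, one_pow]
  · rw [h2, Nat.coprime_two_right] at hk
    obtain ⟨j, rfl⟩ := hk
    rw [pow_succ, pow_mul, pow_two, h, one_pow, one_mul]

/-- the trivial character -/
def triv (G : Type u) [Group G] : IrrCharacter G := ⟨_, irr_one⟩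

namespace Dat

variable (D : Dat G)

/-- the involution inverting `s` -/
def i : G := D.t ^ 3

/-- the element of order `3` normalizing `s` -/
def u : G := D.t ^ 2

theorem pow_s (k : ℕ) : D.s ^ k = D.s ^ (k % 7) := by rw [← D.hs, pow_mod_orderOf]

theorem s7 : D.s ^ 7 = 1 := D.hs ▸ pow_orderOf_eq_one D.s

theorem s_ne : D.s ≠ 1 := fun h => by simpa [h] using D.hs

theorem i2 : D.i * D.i = 1 := by rw [i, ← pow_add, D.ht6]

theorem u3 : D.u ^ 3 = 1 := by rw [u, ← pow_mul, D.ht6]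

theorem hi : D.i * D.s * D.i⁻¹ = D.s⁻¹ := by
  rw [i, conj_pow_iter D.ht, pow_s, eq_inv_iff_mul_eq_one, ← pow_succ]
  exact D.s7

theorem hu : D.u * D.s * D.u⁻¹ = D.s ^ 2 := by
  rw [u, conj_pow_iter D.ht, pow_s]
  rfl

theorem conj_s (k : ℕ) (hk : ¬ 7 ∣ k) : IsConj D.s (D.s ^ k) := by
  obtain ⟨j, hj⟩ : ∃ j, 3 ^ j % 7 = k % 7 := by
    have h1 : k % 7 < 7 := Nat.mod_lt _ (by norm_num)
    have h2 : k % 7 ≠ 0 := fun h => hk (Nat.dvd_of_mod_eq_zero h)
    exact (show ∀ r, r < 7 → r ≠ 0 → ∃ j, j < 6 ∧ 3 ^ j % 7 = r by decide) _ h1 h2 |>.imp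
      fun _ h => h.2
  exact isConj_iff.2 ⟨D.t ^ j, by rw [conj_pow_iter D.ht, pow_s, hj, ← pow_s]⟩

theorem not_conj_s {g : G} {n : ℕ} (hg : g ^ n = 1) (hn : ¬ 7 ∣ n) : ¬ IsConj g D.s := fun h => by
  obtain ⟨c, hc⟩ := isConj_iff.1 h
  exact hn (D.hs ▸ orderOf_dvd_of_pow_eq_one (by rw [← hc, conj_pow, hg]; group))

variable [Finite G]

theorem mem_normal (K : Subgroup G) [hn : K.Normal] (hK : K ≠ ⊥) : D.s ∈ K := by
  rcases D.ord.normal_card (by rw [D.card]; norm_num) D.card.dvd K D.hs with h | h | h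
  · exact h
  · exact absurd h hK
  have h1 := K.card_mul_index
  rw [h, D.card] at h1
  have h2 := K.pow_index_mem D.i
  rw [show K.index = 2 * 94 + 1 by omega, pow_succ, pow_mul, pow_two, D.i2, one_pow, one_mul] at h2
  have h3 := K.mul_mem (hn.conj_mem _ h2 D.s) (K.inv_mem h2)
  rw [show D.s * D.i * D.s⁻¹ * D.i⁻¹ = D.s * (D.i * D.s * D.i⁻¹)⁻¹ by group, D.hi, inv_inv] at h3
  have := K.pow_mem h3 4
  rwa [← pow_two, ← pow_mul, pow_s, pow_one] at this

theorem cent_s : centralizer ({D.s} : Set G) = zpowers D.s := D.ord.card_cent D.card.dvd D.hs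

theorem invol_mul {c : G} (hc : c ∈ zpowers D.s) :
    D.i * c * (D.i * c) = 1 ∧ D.i * c * D.s * (D.i * c)⁻¹ = D.s⁻¹ := by
  obtain ⟨k, rfl⟩ := hc
  constructor
  · have : D.i * D.s ^ k * D.i⁻¹ = (D.s ^ k)⁻¹ := by rw [← conj_zpow, D.hi, inv_zpow]
    calc _ = D.i * D.s ^ k * D.i⁻¹ * (D.i * D.i) * D.s ^ k := by group
      _ = 1 := by rw [this, D.i2]; group
  · rw [← D.hi]; group

theorem mem_of_inv {p : G} (h : p * D.s * p⁻¹ = D.s⁻¹) : D.i⁻¹ * p ∈ zpowers D.s := by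
  rw [← D.cent_s, mem_centralizer_singleton_iff]
  calc _ = D.i⁻¹ * (p * D.s * p⁻¹) * p := by group
    _ = _ := by rw [h, ← D.hi]; group

theorem conj_i {p : G} (h : p * D.s * p⁻¹ = D.s⁻¹) : IsConj D.i p := by
  obtain ⟨k, hk⟩ := D.mem_of_inv h
  have h1 : D.i * D.s ^ (4 * k) * D.i⁻¹ = (D.s ^ (4 * k))⁻¹ := by rw [← conj_zpow, D.hi, inv_zpow]
  have h2 : D.s ^ (7 * k) = 1 := by rw [zpow_mul, zpow_ofNat, D.s7, one_zpow]
  refine isConj_iff.2 ⟨(D.s ^ (4 * k))⁻¹, ?_⟩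
  rw [eq_inv_mul_iff_mul_eq.1 hk |>.symm, inv_inv, ← h1]
  calc _ = D.i * (D.s ^ k * D.s ^ (7 * k)) := by group
    _ = _ := by rw [h2, mul_one]

/-- class multiplication constants at `s` -/
noncomputable def cnt (g h : G) : ℕ :=
  Nat.card {p : G × G // IsConj g p.1 ∧ IsConj h p.2 ∧ p.1 * p.2 = D.s}

omit [Finite G] in
theorem inv_of_mul {g h p q : G} (hg : g * g = 1) (hh : h * h = 1) (h1 : IsConj g p)
    (h2 : IsConj h q) (e : p * q = D.s) : p * D.s * p⁻¹ = D.s⁻¹ := by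
  have key : ∀ {a b : G}, a * a = 1 → IsConj a b → b⁻¹ = b := fun ha hb => by
    obtain ⟨c, rfl⟩ := isConj_iff.1 hb
    rw [inv_eq_iff_mul_eq_one, conj_mul, ha]
    group
  rw [← e, mul_inv_rev, key hh h2, ← mul_assoc, inv_eq_iff_mul_eq_one.1 (key hg h1), one_mul]

theorem cnt_zero {g h : G} (hg : g * g = 1) (hh : h * h = 1) (hi : ¬ IsConj D.i g) :
    D.cnt g h = 0 := by
  rw [cnt, Nat.card_eq_zero]
  exact Or.inl ⟨fun p => hi ((D.conj_i (D.inv_of_mul hg hh p.2.1 p.2.2.1 p.2.2.2)).trans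
    p.2.1.symm)⟩

theorem cnt_ii : D.cnt D.i D.i = 7 := by
  rw [← D.hs, ← Nat.card_zpowers]
  refine (Nat.card_eq_of_bijective (fun c : zpowers D.s => ⟨(D.i * c, D.i * (c * D.s)),
    D.conj_i (D.invol_mul c.2).2, D.conj_i (D.invol_mul (mul_mem c.2 (mem_zpowers _))).2, by
      rw [← mul_assoc D.i, ← mul_assoc, (D.invol_mul c.2).1, one_mul]⟩)
    ⟨fun c d h => Subtype.ext (mul_left_cancel (a := D.i) (congrArg (fun p => p.1.1) h)),
      fun p => ⟨⟨_, D.mem_of_inv (D.inv_of_mul D.i2 D.i2 p.2.1 p.2.2.1 p.2.2.2)⟩, ?_⟩⟩).symm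
  have h := (D.invol_mul (D.mem_of_inv (D.inv_of_mul D.i2 D.i2 p.2.1 p.2.2.1 p.2.2.2))).1
  rw [mul_inv_cancel_left] at h
  refine Subtype.ext (Prod.ext (mul_inv_cancel_left _ _) ?_)
  change D.i * (D.i⁻¹ * p.1.1 * D.s) = p.1.2
  calc _ = p.1.1 * D.s := by group
    _ = p.1.1 * (p.1.1 * p.1.2) := congrArg _ p.2.2.2.symm
    _ = _ := by rw [← mul_assoc, h, one_mul]

theorem iv_s (χ : IrrCharacter G) : χ.1 D.s = iv χ D.s :=
  iv_cast (char_int_of_rational (irr_isChar χ.2) _ fun k hk => D.conj_s k fun h => by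
    rw [D.hs] at hk
    exact absurd (hk.symm.eq_one_of_dvd h) (by norm_num))

theorem dih7 (χ : IrrCharacter G) {ε : ℤ} (hε : ε = 1 ∨ ε = -1) :
    ∃ m : ℕ, iv χ 1 + 6 * iv χ D.s + ε * (7 * iv χ D.i) = 14 * m := by
  obtain ⟨m, hm⟩ := dih_sum (irr_isChar χ.2) D.hs (by rw [pow_two, D.i2]) D.hi (ε := ε)
    (by rcases hε with rfl | rfl <;> simp)
  have h1 : ∀ k : ZMod 7, χ.1 (zmodPow D.s k) =
      iv χ D.s + if k = 0 then (iv χ 1 : ℂ) - iv χ D.s else 0 := fun k => by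
    split_ifs with h
    · rw [h, zmodPow_zero, iv_invol χ (one_mul 1)]; ring
    · rw [add_zero, ← D.iv_s]
      exact (class_isConj (Irr_class χ) (D.conj_s _ fun e => h ((ZMod.val_eq_zero k).1
        (Nat.eq_zero_of_dvd_of_lt e k.val_lt)))).symm
  have h2 : ∀ k : ZMod 7, χ.1 (D.i * zmodPow D.s k) = iv χ D.i := fun k => by
    rw [← iv_invol χ D.i2]
    exact (class_isConj (Irr_class χ) (D.conj_i (D.invol_mul (zmodPow_mem _ k)).2)).symm
  simp only [h1, h2, Finset.sum_add_distrib, Finset.sum_const, Finset.card_univ, ZMod.card,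
    Finset.sum_ite_eq', Finset.mem_univ, if_true, nsmul_eq_mul] at hm
  refine ⟨m, ?_⟩
  have : ((iv χ 1 + 6 * iv χ D.s + ε * (7 * iv χ D.i) : ℤ) : ℂ) = ((14 * m : ℤ) : ℂ) := by
    push_cast at hm ⊢
    linear_combination hm
  exact_mod_cast this

end Dat

end CfsgH2.G22
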