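import Cfsg.Agent.H2.G22C
import Cfsg.Agent.H6.PGroupAct

/-! Groups of order `12096` whose element orders divide `12`, `8` or `7`: the degrees of the
characters not vanishing at an element of order `7`. -/

set_option autoImplicit false
set_option linter.style.haveILetI false

namespace CfsgH2.G22

open Subgroup MulAction Cfsg CfsgL CfsgH8
open scoped ComplexConjugate

universe u

variable {G : Type u} [Group G] [Finite G]

theorem cast_sum {ι : Type*} (L : List ι) (f : ι → ℤ) (F : ι → ℂ) (h : ∀ i ∈ L, F i = f i) :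
    (L.map F).sum = ((L.map f).sum : ℤ) := by
  induction L with
  | nil => simp
  | cons i L ih =>
    simp only [List.map_cons, List.sum_cons, Int.cast_add]
    rw [h i List.mem_cons_self, ih fun j hj => h j (List.mem_cons_of_mem _ hj)]

theorem exists_central {p n : ℕ} [Fact p.Prime] (P : Subgroup G) (hP : Nat.card P = p ^ (n + 1)) :
    ∃ z ∈ P, orderOf z = p ∧ P ≤ centralizer {z} := by
  obtain ⟨z, -, h1, h2⟩ := CfsgH6.exists_central_orderOf_eq_of_normal (IsPGroup.of_card hP) ⊤
    fun h => by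
      have := congrArg (fun K : Subgroup P => Nat.card K) h
      simp only [card_top, card_bot, hP] at this
      exact (Fact.out : p.Prime).one_lt.ne' (by simpa using this)
  exact ⟨z, z.2, by simpa using h1, fun g hg => mem_centralizer_singleton_iff.2
    (congrArg Subtype.val (mem_center_iff.1 h2 ⟨g, hg⟩))⟩

theorem Ord.not_seven (ho : Ord G) {g : G} {n : ℕ} (hg : g ≠ 1) (hn : g ^ n = 1)
    (h7 : n.Coprime 7) : ¬ 7 ∣ Nat.card (centralizer ({g} : Set G)) := fun h => by
  haveI : Fact (Nat.Prime 7) := ⟨by norm_num⟩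
  obtain ⟨x, hx⟩ := exists_prime_orderOf_dvd_card' 7 h
  exact hg (ho.eq_one (g := x) (by simpa using hx) (mem_centralizer_singleton_iff.1 x.2) hn h7)

/-- the list of the non-trivial characters not vanishing at `s` -/
structure Blk (D : Dat G) (L : List (IrrCharacter G)) : Prop where
  mem : ∀ χ, χ ∈ L ↔ χ ≠ triv G ∧ χ.1 D.s ≠ 0
  sum : ∀ f : IrrCharacter G → ℂ,
    ∑ χ, χ.1 D.s * f χ = f (triv G) + (L.map fun χ => χ.1 D.s * f χ).sum
  sorted : (L.map (iv · 1)).Pairwise (· ≤ ·)

theorem exists_blk (D : Dat G) : ∃ L, Blk D L := by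
  classical
  let B : Finset (IrrCharacter G) := Finset.univ.filter fun χ => χ ≠ triv G ∧ χ.1 D.s ≠ 0
  have hp := List.mergeSort_perm B.toList fun a b => decide (iv a 1 ≤ iv b 1)
  refine ⟨_, fun χ => hp.mem_iff.trans (by simp [B]), fun f => ?_, ?_⟩
  · rw [(hp.map _).sum_eq, Finset.sum_map_toList,
      ← Finset.add_sum_erase _ _ (Finset.mem_univ (triv G))]
    congr 1
    · exact one_mul _
    · refine (Finset.sum_subset (fun χ h => ?_) fun χ h1 h2 => ?_).symm
      · simpa using (Finset.mem_filter.1 h).2.1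
      · rw [show χ.1 D.s = 0 by simpa [B, (Finset.mem_erase.1 h1).1] using h2, zero_mul]
  · rw [List.pairwise_map]
    simpa using List.pairwise_mergeSort (le := fun a b : IrrCharacter G =>
      decide (iv a 1 ≤ iv b 1)) (fun a b c => by simpa using le_trans)
      (fun a b => by simpa using le_total _ _) B.toList

theorem conj_iv (χ : IrrCharacter G) {g : G} (h : g * g = 1) : conj (χ.1 g) = iv χ g := by
  rw [iv_invol χ h, map_intCast]

theorem Dat.order_i (D : Dat G) : orderOf D.i = 2 := by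
  refine orderOf_eq_prime (by rw [pow_two, D.i2]) fun h => ?_
  have := D.hi
  rw [h, one_mul, inv_one, mul_one, eq_inv_iff_mul_eq_one, ← pow_two,
    ← orderOf_dvd_iff_pow_eq_one, D.hs] at this
  norm_num at this

theorem Dat.order_u (D : Dat G) : orderOf D.u = 3 := by
  haveI : Fact (Nat.Prime 3) := ⟨Nat.prime_three⟩
  refine orderOf_eq_prime D.u3 fun h => D.s_ne ?_
  have := D.hu
  rw [h, one_mul, inv_one, mul_one, pow_two] at this
  exact (left_eq_mul.1 this)

theorem Dat.eq_one_of_norm (D : Dat G) {χ : IrrCharacter G} (h : ‖χ.1 D.s‖ ≠ ‖χ.1 1‖) {g : G}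
    (hg : ‖χ.1 g‖ = ‖χ.1 1‖) : g = 1 := by
  by_contra h1
  haveI := charCenter_normal (Irr_class χ)
  exact h ((mem_charCenter_iff χ.2).1 (D.mem_normal (charCenter χ.1) fun e => h1
    (mem_bot.1 (e ▸ (mem_charCenter_iff χ.2).2 hg))))

namespace Blk

variable {D : Dat G} {L : List (IrrCharacter G)} (B : Blk D L)
include B

theorem col {g : G} (h : ¬ IsConj g D.s) :
    1 + (L.map fun χ => χ.1 D.s * conj (χ.1 g)).sum = 0 := by
  rw [← second_orth_ne h, B.sum]
  simp [triv]

theorem mult (g h : G) : (D.cnt g h * Nat.card (centralizer ({g} : Set G)) *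
    Nat.card (centralizer ({h} : Set G)) : ℂ) =
    12096 * (1 + (L.map fun χ => χ.1 D.s * (conj (χ.1 g) * conj (χ.1 h) / χ.1 1)).sum) := by
  have h1 := B.sum fun χ => conj (χ.1 g) * conj (χ.1 h) / χ.1 1
  have h2 : ∀ x : G, (Nat.card (centralizer ({x} : Set G)) : ℂ) ≠ 0 := fun x =>
    Nat.cast_ne_zero.2 Nat.card_pos.ne'
  simp only [triv, map_one, mul_one, div_one] at h1
  rw [← h1, Dat.cnt, class_mult_formula, D.card, Finset.sum_congr rfl fun χ _ =>
    show _ = χ.1 D.s * (conj (χ.1 g) * conj (χ.1 h) / χ.1 1) by ring]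
  have := h2 g
  have := h2 h
  field_simp
  push_cast
  ring

theorem sq : (L.map fun χ => iv χ D.s * iv χ D.s).sum = 6 := by
  have h := second_orth_self D.s
  rw [B.sum, D.cent_s, Nat.card_zpowers, D.hs, cast_sum L (fun χ => iv χ D.s * iv χ D.s) _
    fun χ _ => by rw [D.iv_s, map_intCast, Int.cast_mul]] at h
  simp only [triv, map_one] at h
  have : ((1 + (L.map fun χ => iv χ D.s * iv χ D.s).sum : ℤ) : ℂ) = (7 : ℤ) := by
    push_cast at h ⊢
    exact h
  have := Int.cast_injective this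
  omega

theorem ne_zero {χ : IrrCharacter G} (h : χ ∈ L) : iv χ D.s ≠ 0 := fun e =>
  ((B.mem χ).1 h).2 (by rw [D.iv_s, e, Int.cast_zero])

theorem length_lt : L.length < 7 := by
  have := List.card_nsmul_le_sum (L.map fun χ => iv χ D.s * iv χ D.s) 1 fun x hx => by
    obtain ⟨χ, h, rfl⟩ := List.mem_map.1 hx
    exact Int.add_one_le_of_lt (mul_self_pos.2 (B.ne_zero h))
  rw [B.sq, List.length_map, nsmul_one] at this
  omega

theorem deg {χ : IrrCharacter G} (h : χ ∈ L) : iv χ 1 ∈ DL ∧ iv χ D.s = A (iv χ 1) := by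
  have h1 := List.single_le_sum (l := L.map fun χ => iv χ D.s * iv χ D.s) (fun x hx => by
    obtain ⟨χ, -, rfl⟩ := List.mem_map.1 hx
    exact mul_self_nonneg _) _ (List.mem_map_of_mem h)
  rw [B.sq] at h1
  have h2 := B.ne_zero h
  have h3 : -2 ≤ iv χ D.s := by nlinarith
  have h4 : iv χ D.s ≤ 2 := by nlinarith
  obtain ⟨m, hm⟩ := D.dih7 χ (Or.inl rfl)
  obtain ⟨n, -, hn⟩ := irr_deg_pos χ.2
  have h5 : iv χ 1 = n := iv_eq (by rw [hn, Int.cast_natCast])
  have h6 := deg_sq_mul_card_le χ.2 hn ⊥ bot_le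
  rw [card_bot, D.card] at h6
  rw [h5] at hm ⊢
  have h7 : iv χ D.s = -2 ∨ iv χ D.s = -1 ∨ iv χ D.s = 1 ∨ iv χ D.s = 2 := by omega
  exact ⟨mem_DL n (by nlinarith) (D.card ▸ irr_deg_dvd_card χ.2 hn)
    (by rcases h7 with h | h | h | h <;> omega),
    by unfold A; rcases h7 with h | h | h | h <;> omega⟩

theorem val_s {χ : IrrCharacter G} (h : χ ∈ L) : χ.1 D.s = A (iv χ 1) := by
  rw [D.iv_s, (B.deg h).2]

theorem col' {g : G} (hg : g * g = 1) : (L.map fun χ => A (iv χ 1) * iv χ g).sum = -1 := by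
  have h := B.col (D.not_conj_s (n := 2) (by rwa [pow_two]) (by norm_num))
  rw [cast_sum L (fun χ => A (iv χ 1) * iv χ g) _ fun χ h => by
    rw [B.val_s h, conj_iv χ hg, Int.cast_mul]] at h
  have : ((1 + (L.map fun χ => A (iv χ 1) * iv χ g).sum : ℤ) : ℂ) = (0 : ℤ) := by
    push_cast at h ⊢
    exact h
  have := Int.cast_injective this
  omega

theorem mult' {g h : G} (hg : g * g = 1) (hh : h * h = 1) :
    (D.cnt g h * Nat.card (centralizer ({g} : Set G)) * Nat.card (centralizer ({h} : Set G)) : ℤ) =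
      7 * (1728 + S2 (L.map (iv · 1)) (L.map (iv · g)) (L.map (iv · h))) := by
  have h1 := B.mult g h
  rw [show (12096 : ℂ) = 7 * 1728 by norm_num, mul_assoc 7, mul_add, ← List.sum_map_mul_left,
    cast_sum L (fun χ => A (iv χ 1) * iv χ g * iv χ h * (1728 / iv χ 1)) _ fun χ h => ?_] at h1
  · rw [S2_map]
    refine Int.cast_injective (α := ℂ) ?_
    push_cast at h1 ⊢
    linear_combination h1
  obtain ⟨h2, h3⟩ := (show ∀ d ∈ DL, d ∣ 1728 ∧ d ≠ 0 by decide) _ (B.deg h).1
  rw [B.val_s h, conj_iv χ hg, conj_iv χ hh, iv_invol χ (one_mul 1)]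
  push_cast [Int.cast_div h2 (Int.cast_ne_zero.2 h3)]
  ring

omit B in
theorem vanish64 {χ : IrrCharacter G} (D : Dat G) {g : G} (hg : orderOf g = 2)
    (h : iv χ 1 = 64) : iv χ g = 0 :=
  iv_eq (by
    rw [defect_zero_vanish χ.2 (n := 64) (m := 189) Nat.prime_two
      (by rw [iv_invol χ (one_mul 1), h]; simp) D.card (by norm_num) hg.symm.dvd]
    simp)

theorem mem_XL' {χ : IrrCharacter G} (h : χ ∈ L) : iv χ D.i ∈ XL (iv χ 1) := by
  obtain ⟨h1, h2⟩ := B.deg h
  obtain ⟨m, hm⟩ := D.dih7 χ (Or.inl rfl)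
  obtain ⟨m', hm'⟩ := D.dih7 χ (Or.inr rfl)
  rw [h2] at hm hm'
  have h3 := (show ∀ d ∈ DL, d + 6 * A d ≤ 100 by decide) _ h1
  exact mem_XL _ h1 _ (mem_RR (by omega) (by omega)) (by omega) (by omega) (by omega)
    (vanish64 D D.order_i)

theorem mem_YL {χ : IrrCharacter G} (h : χ ∈ L) {z : G} (hz : orderOf z = 2)
    (h7 : 7 ≤ (centralizer ({z} : Set G)).index) :
    iv χ z ∈ YL (centralizer ({z} : Set G)).index (iv χ 1) := by
  have hz2 : z * z = 1 := by rw [← pow_two, ← hz, pow_orderOf_eq_one]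
  have e1 := iv_invol χ (one_mul 1)
  have e2 := iv_invol χ hz2
  have h1 : ((centralizer ({z} : Set G)).index : ℤ) * (iv χ z * iv χ z) ≤ 12096 := by
    have h2 := Finset.single_le_sum (f := fun χ : IrrCharacter G => ‖χ.1 z‖ ^ 2)
      (fun _ _ => sq_nonneg _) (Finset.mem_univ χ)
    rw [second_orth_normSq, e2, Complex.norm_intCast, sq_abs, pow_two] at h2
    have h3 : iv χ z * iv χ z ≤ Nat.card (centralizer ({z} : Set G)) := by exact_mod_cast h2
    have h4 := (centralizer ({z} : Set G)).index_mul_card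
    rw [D.card] at h4
    calc _ ≤ ((centralizer ({z} : Set G)).index : ℤ) * Nat.card (centralizer ({z} : Set G)) :=
          mul_le_mul_of_nonneg_left h3 (Nat.cast_nonneg _)
      _ = _ := by exact_mod_cast h4
  have h2 : iv χ z * iv χ z ≤ 1728 := by nlinarith [mul_self_nonneg (iv χ z)]
  obtain ⟨h3, h4⟩ := (show ∀ d ∈ DL, 0 < d ∧ (|A d| = |d| → d ≤ 2) by decide) _ (B.deg h).1
  refine List.mem_filter.2 ⟨mem_RR (by push_cast; nlinarith) (by push_cast; nlinarith),
    decide_eq_true ⟨Int.emod_eq_zero_of_dvd (int_dvd_of_isIntegral_div h3.ne' ?_), ?_, h1, ?_,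
      fun e => h4 ?_, vanish64 D hz⟩⟩
  · simpa [e1.symm, e2.symm] using irr_class_isIntegral χ.2 z
  · obtain ⟨m, hm⟩ := dih_sum (irr_isChar χ.2) (n := 1) (x := 1) (y := z) orderOf_one
      (by rwa [pow_two]) (by simp) (Or.inl rfl)
    simp only [zmodPow, one_pow, mul_one, Finset.sum_const, Finset.card_univ, ZMod.card, one_smul,
      one_mul, Nat.cast_one] at hm
    rw [e1, e2] at hm
    have : iv χ 1 + iv χ z = 2 * m := by exact_mod_cast hm
    omega
  · have := char_norm_le (irr_isChar χ.2) z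
    rw [e1, e2, Complex.norm_intCast, Complex.norm_intCast] at this
    exact abs_le_iff_mul_self_le.1 (by exact_mod_cast this)
  · by_contra h5
    have := D.eq_one_of_norm (χ := χ) (g := z) (by
      rw [B.val_s h, e1, Complex.norm_intCast, Complex.norm_intCast]
      exact_mod_cast h5) (by
      rw [e1, e2, Complex.norm_intCast, Complex.norm_intCast]
      exact_mod_cast abs_eq_abs.2 (mul_self_eq_mul_self_iff.1 e))
    simp [this] at hz

theorem out : ∃ z : G, z * z = 1 ∧ Out (L.map (iv · 1)) (L.map (iv · D.i)) (L.map (iv · z)) := by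
  obtain ⟨P⟩ : Nonempty (Sylow 2 G) := inferInstance
  have hP : Nat.card P = 2 ^ (5 + 1) := by
    rw [P.card_eq_multiplicity, D.card]; decide +kernel
  obtain ⟨z, -, hz, hc⟩ := exists_central P.1 hP
  have hz2 : z * z = 1 := by rw [← pow_two, ← hz, pow_orderOf_eq_one]
  have h64 := card_dvd_of_le hc
  rw [hP] at h64
  have h7 := D.ord.not_seven (g := z) (n := 2) (by rintro rfl; simp at hz) (by rwa [pow_two])
    (by norm_num)
  have h1 := (centralizer ({z} : Set G)).index_mul_card
  rw [D.card] at h1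
  have hk : (centralizer ({z} : Set G)).index ∈ [7, 21, 63, 189] := by
    obtain ⟨m, hm⟩ := h64
    rw [hm] at h1 h7
    generalize (centralizer ({z} : Set G)).index = k at h1 ⊢
    have h2 : k * m = 189 := by
      rw [mul_left_comm] at h1
      omega
    have h3 : 7 ∣ k := ((Nat.Prime.dvd_mul (by norm_num)).1 (h2 ▸ by norm_num)).resolve_right
      fun h => h7 (h.mul_left _)
    exact (show ∀ k, k < 190 → k ∣ 189 → 7 ∣ k → k ∈ [7, 21, 63, 189] by decide +kernel) _
      (Nat.lt_succ_of_le (Nat.le_of_dvd (by norm_num) (Dvd.intro _ h2))) (Dvd.intro _ h2) h3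
  have hi7 := D.ord.not_seven (g := D.i) (n := 2) (fun h => by simpa [h] using D.order_i)
    (by rw [pow_two, D.i2]) (by norm_num)
  have hi : Nat.card (centralizer ({D.i} : Set G)) ∣ 1728 := Nat.Coprime.dvd_of_dvd_mul_left
    ((Nat.Prime.coprime_iff_not_dvd (by norm_num)).2 hi7).symm
    ((card_subgroup_dvd_card _).trans D.card.dvd)
  have h6 : 2 * 3 ∣ Nat.card (centralizer ({D.i} : Set G)) := Nat.Coprime.mul_dvd_of_dvd_of_dvd
    (by norm_num) (D.order_i ▸ orderOf_dvd_natCard _ (mem_centralizer_singleton_iff.2 rfl))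
    (D.order_u ▸ orderOf_dvd_natCard _ (mem_centralizer_singleton_iff.2
      ((Commute.refl D.t).pow_pow 2 3)))
  have h2 := B.mult' D.i2 D.i2
  rw [D.cnt_ii] at h2
  obtain ⟨h3, h4⟩ := enum L (iv · 1) (iv · D.i) (iv · z) (k := (centralizer ({z} : Set G)).index)
    (fun χ h => (B.deg h).1) B.sorted B.length_lt (fun χ h => B.mem_XL' h)
    (by rw [← B.sq]; exact congrArg _ (List.map_congr_left fun χ h => by rw [(B.deg h).2]))
    (B.col' (one_mul 1)) (B.col' D.i2)
    (mem_CL _ (Nat.lt_succ_of_le (Nat.le_of_dvd (by norm_num) hi)) h6 hi)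
    (by push_cast at h2; linarith)
  have h5 : ¬ IsConj D.i z := fun h => h3 (by
    have e := (card_conj_eq_index D.i).symm.trans ((Nat.card_congr (Equiv.subtypeEquivRight
      fun g => ⟨h.symm.trans, h.trans⟩)).trans (card_conj_eq_index z))
    have h6 := (centralizer ({D.i} : Set G)).index_mul_card
    rw [D.card, e, ← h1] at h6
    rw [Nat.eq_of_mul_eq_mul_left (Nat.pos_of_ne_zero index_ne_zero_of_finite) h6]
    exact_mod_cast Nat.mod_eq_zero_of_dvd h64)
  have h8 := B.mult' hz2 hz2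
  have h9 := B.mult' hz2 D.i2
  rw [D.cnt_zero hz2 hz2 h5] at h8
  rw [D.cnt_zero hz2 D.i2 h5] at h9
  simp only [List.mem_cons, List.not_mem_nil, or_false] at hk
  exact ⟨z, hz2, h4 (by simp only [List.mem_cons]; omega) (fun χ h => B.mem_YL h hz (by omega))
    (B.col' hz2) (by push_cast at h8; linarith) (by push_cast at h9; linarith)⟩

end Blk

end CfsgH2.G22
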