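import Cfsg.Agent.H2.G22D

/-! Groups of order `12096` whose element orders divide `12`, `8` or `7`: the character of
degree `6`. -/

set_option autoImplicit false
set_option linter.style.haveILetI false

namespace CfsgH2.G22

open Subgroup MulAction Cfsg CfsgL CfsgH8 CfsgH3
open scoped ComplexConjugate

universe u

variable {G : Type u} [Group G] [Finite G]

theorem exists_norm {α : G → ℂ} (hα : IsIrrCharacter G α) (h3 : α 1 = (3 : ℕ)) (Q : Sylow 3 G)
    (hQ : Nat.card Q = 27) : ∃ x : G, x ≠ 1 ∧ ‖α x‖ = ‖α 1‖ := by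
  haveI : Fact (Nat.Prime 3) := ⟨Nat.prime_three⟩
  by_cases hc : commutator Q = ⊥
  · by_contra! h
    have := card_dvd_deg (irr_isChar hα) h3 Q fun d hd h1 =>
      (irr_eq_zero_or_norm_eq hα h3 ?_).resolve_right (h d h1)
    · rw [hQ] at this
      norm_num at this
    rw [commutator_eq_bot_iff_center_eq_top] at hc
    have h2 : Q.1 ≤ centralizer {d} := fun g hg => mem_centralizer_singleton_iff.2
      (congrArg Subtype.val (mem_center_iff.1 (hc ▸ mem_top (⟨d, hd⟩ : Q)) ⟨g, hg⟩))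
    exact ((Nat.Prime.coprime_iff_not_dvd Nat.prime_three).2 fun e =>
      Q.not_dvd_index (e.trans (index_dvd_of_le h2))).symm
  obtain ⟨w, h1, h2, h4⟩ := CfsgH6.exists_central_orderOf_eq_of_normal Q.isPGroup' _ hc
  refine ⟨w, fun e => by simp [show w = 1 from Subtype.ext e] at h2, ?_⟩
  have key : ∀ ψ : Q → ℂ, IsCharacter Q ψ → IsCharacter Q ψ ∧
      (∀ n : ℕ, ψ 1 = n → n < 3 → ψ w = n) ∧ (ψ 1 = 3 → ‖ψ w‖ = 3) := by
    intro ψ hψ
    refine char_induction (P := fun ψ => IsCharacter Q ψ ∧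
      (∀ n : ℕ, ψ 1 = n → n < 3 → ψ w = n) ∧ (ψ 1 = 3 → ‖ψ w‖ = 3)) ?_ ?_ ?_ hψ
    · exact ⟨char_zero, fun n h _ => h, fun h => by simp at h⟩
    · rintro a b ⟨a1, a2, a3⟩ ⟨b1, b2, b3⟩
      obtain ⟨n, hn⟩ := char_deg_nat a1
      obtain ⟨m, hm⟩ := char_deg_nat b1
      simp only [Pi.add_apply, hn, hm, ← Nat.cast_add, Nat.cast_inj]
      refine ⟨char_add a1 b1, ?_, fun h => ?_⟩
      · rintro _ rfl h
        rw [a2 n hn (by omega), b2 m hm (by omega), Nat.cast_add]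
      have h5 : n + m = 3 := by exact_mod_cast h
      by_cases h6 : n = 3
      · rw [b2 m hm (by omega), show m = 0 by omega, Nat.cast_zero, add_zero, a3 (by simp [hn, h6])]
      by_cases h7 : m = 3
      · rw [a2 n hn (by omega), show n = 0 by omega, Nat.cast_zero, zero_add, b3 (by simp [hm, h7])]
      rw [a2 n hn (by omega), b2 m hm (by omega), ← Nat.cast_add, h5]
      simp
    · refine fun ψ hψ => ⟨irr_isChar hψ, fun n hn h => ?_, fun h => ?_⟩
      · have h5 := irr_deg_dvd_card hψ hn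
        rw [hQ] at h5
        have h6 : n = 1 := by interval_cases n <;> simp_all
        rw [← hn]
        exact charKer_apply (commutator_le_charKer_of_deg_one (irr_isChar hψ) (by simp [hn, h6]) h1)
      · rw [(mem_charCenter_iff hψ).1 (center_le_charCenter hψ h4), h]
        simp
  rw [(key _ (char_restrict _ (irr_isChar hα))).2.2 h3, h3]
  simp

theorem Dat.no6 (D : Dat G) (l : G →* ℂ) (hl : ∀ g, l g = 1 ∨ l g = -1) (hi : l D.i = -1)
    (hs : l D.s = 1) {χ : G → ℂ} (hχ : IsIrrCharacter G χ) (h6 : χ 1 = 6) (hχs : χ D.s = -1) :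
    χ * l ≠ χ := fun h => by
  classical
  letI := Fintype.ofFinite G
  have hN : l.ker.index = 2 := index_eq_two_iff.2 ⟨D.i, fun b => by
    rcases hl b with e | e <;> simp [MonoidHom.mem_ker, e, hi, Xor] <;> norm_num⟩
  have hc : Nat.card l.ker = 6048 := by
    have := l.ker.card_mul_index
    rw [hN, D.card] at this
    omega
  have h0 : ∀ g, g ∉ l.ker → χ g = 0 := fun g hg => by
    have := congrFun h g
    rw [Pi.mul_apply, (hl g).resolve_left hg] at this
    linear_combination (-1 / 2) * this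
  have h2 : classInner (fun g : l.ker => χ g) (fun g : l.ker => χ g) = 2 := by
    have h1 := sum_mul_conj_eq χ χ
    have h3 := sum_mul_conj_eq (fun g : l.ker => χ g) (fun g : l.ker => χ g)
    rw [← sum_subInd_mul l.ker fun g => χ g * conj (χ g), Finset.sum_congr rfl fun g _ =>
      show _ = χ g * conj (χ g) by
        by_cases hg : g ∈ l.ker
        · simp [subInd, hg]
        · simp [h0 g hg], h1, inner_irr_self hχ, hc, D.card] at h3
    push_cast at h3
    linear_combination (-1 / 6048) * h3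
  obtain ⟨α, β, hα, hβ, e, a1, b1⟩ := char_norm_two (char_restrict _ (irr_isChar hχ)) h2
  have key : ∀ α : l.ker → ℂ, IsIrrCharacter _ α → classInner (fun g : l.ker => χ g) α = 1 →
      ∃ n : ℕ, 3 ≤ n ∧ α 1 = n := fun α hα a1 => by
    obtain ⟨n, hn⟩ := char_deg_nat (irr_isChar hα)
    obtain ⟨m, hm⟩ := char_deg_nat (char_sub_irr (char_indFun _ (irr_isChar hα)) hχ (by
      rw [inner_indFun_left _ _ (char_isClass (irr_isChar hχ)), ← CfsgL.inner_conj_symm, a1]
      simp))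
    rw [Pi.sub_apply, indFun_one, hN, hn, h6, sub_eq_iff_eq_add] at hm
    have : 2 * n = m + 6 := by exact_mod_cast hm
    exact ⟨n, by omega, hn⟩
  obtain ⟨n, n3, hn⟩ := key α hα a1
  obtain ⟨m, m3, hm⟩ := key β hβ b1
  have e1 := congrFun e 1
  simp only [OneMemClass.coe_one, Pi.add_apply, h6, hn, hm] at e1
  have e2 : 6 = n + m := by exact_mod_cast e1
  obtain rfl : n = 3 := by omega
  obtain rfl : m = 3 := by omega
  haveI := charCenter_normal (char_isClass (irr_isChar hα))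
  rcases (D.ord.sub l.ker).normal_card (by rw [hc]; norm_num) (by rw [hc]; norm_num) (charCenter α)
    (s := ⟨D.s, hs⟩) (by rw [← D.hs]; exact (orderOf_mk _ _)) with h1 | h1 | h1
  · have hu : D.u ∈ l.ker := by
      change l (D.t ^ 2) = 1
      rw [map_pow]
      rcases hl D.t with e | e <;> simp [e]
    have h3 := inv_mem (commutator_mem_charKer (char_isClass (irr_isChar hα)) h1 ⟨D.u, hu⟩)
    rw [show ((⟨D.s, hs⟩ : l.ker) * ⟨D.u, hu⟩ * (⟨D.s, hs⟩ : l.ker)⁻¹ * (⟨D.u, hu⟩ : l.ker)⁻¹)⁻¹ =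
      ⟨D.s, hs⟩ from Subtype.ext (by
        change (D.s * D.u * D.s⁻¹ * D.u⁻¹)⁻¹ = D.s
        calc _ = D.u * D.s * D.u⁻¹ * D.s⁻¹ := by group
          _ = _ := by rw [D.hu, pow_two, mul_inv_cancel_right])] at h3
    have h4 := congrFun e ⟨D.s, hs⟩
    have h5 := char_norm_le (irr_isChar hβ) ⟨D.s, hs⟩
    simp only [Pi.add_apply, hχs, charKer_apply h3, hn] at h4
    rw [hm, show β ⟨D.s, hs⟩ = -4 by push_cast at h4; linear_combination -h4] at h5
    norm_num at h5
  · haveI : Fact (Nat.Prime 3) := ⟨Nat.prime_three⟩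
    obtain ⟨Q⟩ : Nonempty (Sylow 3 l.ker) := inferInstance
    obtain ⟨x, h3, h4⟩ := exists_norm hα hn Q (by rw [Q.card_eq_multiplicity, hc]; decide +kernel)
    exact h3 (mem_bot.1 (h1 ▸ (mem_charCenter_iff hα).2 h4))
  · have := (charCenter α).card_subgroup_dvd_card
    rw [h1, hc] at this
    norm_num at this

theorem eq_of_count {ι β : Type*} [BEq β] [LawfulBEq β] {L : List ι} {f : ι → β} {t : β}
    (h : (L.map f).count t = 1) {a b : ι} (ha : a ∈ L) (hb : b ∈ L) (fa : f a = t)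
    (fb : f b = t) : a = b := by
  rw [List.count_eq_countP, List.countP_map, List.countP_eq_length_filter,
    List.length_eq_one_iff] at h
  obtain ⟨w, hw⟩ := h
  have key : ∀ a ∈ L, f a = t → a = w := fun a ha fa =>
    List.mem_singleton.1 (hw ▸ List.mem_filter.2 ⟨ha, by simp [fa]⟩)
  rw [key a ha fa, key b hb fb]

theorem Dat.exists_alpha (D : Dat G) : ∃ α : IrrCharacter G, α.1 1 = 6 ∧ α.1 D.s = -1 ∧
    (∀ g, g ^ 3 = 1 → conj (α.1 g) = α.1 g) ∧ ∀ g h, orderOf g = 3 → orderOf h = 3 →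
      (D.cnt g h * Nat.card (centralizer ({g} : Set G)) * Nat.card (centralizer ({h} : Set G)) : ℂ)
        = 24192 - 4032 * α.1 g * α.1 h + 756 * (α.1 g - 1) * (α.1 h - 1) := by
  obtain ⟨L, B⟩ := exists_blk D
  obtain ⟨z, hz, h1, h2, h3⟩ := B.out
  have e1 : ∀ χ : IrrCharacter G, χ.1 1 = iv χ 1 := fun χ => iv_invol χ (one_mul 1)
  rw [List.zip_map', List.zip_map'] at h1
  obtain ⟨ν, hν, h1⟩ := List.mem_map.1 h1
  simp only [Prod.mk.injEq] at h1
  obtain ⟨n1, n2, n3⟩ := h1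
  obtain ⟨l, hl⟩ := char_deg_one_hom (irr_isChar ν.2) (by rw [e1, n1]; simp)
  have hi : l D.i = -1 := by rw [hl, iv_invol ν D.i2, n2]; simp
  have hlz : l z = 1 := by rw [hl, iv_invol ν hz, n3]; simp
  have hs : l D.s = 1 := by rw [hl, B.val_s hν, n1]; simp [A]
  have hl2 : ∀ g, l g = 1 ∨ l g = -1 := fun g => by
    by_cases h : (⟨_, irr_of_hom (l * l)⟩ : IrrCharacter G) = triv G
    · exact mul_self_eq_one_iff.1 (congrFun (congrArg Subtype.val h) g)
    have := congrFun (congrArg Subtype.val (eq_of_count h2 ((B.mem _).2 ⟨h, by simp [hs]⟩) hν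
      (iv_eq (by simp)) n1)) D.i
    rw [← hl] at this
    norm_num [hi] at this
  have key : ∀ χ ∈ L, iv χ 1 = 6 → χ.1 1 = 6 ∧ χ.1 D.s = -1 := fun χ h h6 =>
    ⟨by rw [e1, h6]; simp, by rw [B.val_s h, h6]; simp [A]⟩
  have mem6 : ∀ χ : IrrCharacter G, χ.1 1 = 6 → χ.1 D.s = -1 → χ ∈ L ∧ iv χ 1 = 6 :=
    fun χ a b => ⟨(B.mem _).2 ⟨by rintro rfl; norm_num [triv] at a, by simp [b]⟩,
      iv_eq (by simp [a])⟩
  have mul6 : ∀ χ ∈ L, iv χ 1 = 6 → ∃ ψ ∈ L, iv ψ 1 = 6 ∧ ψ ≠ χ ∧ ψ.1 = χ.1 * l := fun χ h h6 => by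
    obtain ⟨a, b⟩ := key χ h h6
    obtain ⟨c, d⟩ := mem6 ⟨_, irr_mul_hom χ.2 l⟩ (by simp [a]) (by simp [b, hs])
    exact ⟨_, c, d, fun e => D.no6 l hl2 hi hs χ.2 a b (congrArg Subtype.val e), rfl⟩
  rcases h3 with h3 | h3
  swap
  · rw [List.zip_map'] at h3
    obtain ⟨χ, h, e⟩ := List.mem_map.1 (List.count_pos_iff.1 (h3 ▸ Nat.one_pos))
    obtain ⟨ψ, a, b, c, d⟩ := mul6 χ h (congrArg Prod.fst e)
    refine absurd (eq_of_count h3 a h (Prod.ext b ?_) e) c
    exact (iv_eq (by rw [d, Pi.mul_apply, hlz, mul_one, iv_invol χ hz])).trans (congrArg Prod.snd e)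
  simp only [List.map_eq_cons_iff, List.map_eq_nil_iff] at h3
  obtain ⟨χ1, _, rfl, d1, χ2, _, rfl, d2, χ3, _, rfl, d3, χ4, _, rfl, d4, χ5, _, rfl, d5,
    χ6, _, rfl, d6, rfl⟩ := h3
  obtain rfl : ν = χ1 := eq_of_count h2 hν (by simp) n1 d1
  have two : ∀ χ ∈ [ν, χ2, χ3, χ4, χ5, χ6], iv χ 1 = 6 → χ = χ2 ∨ χ = χ3 := fun χ h h6 => by
    simp only [List.mem_cons, List.not_mem_nil, or_false] at h
    rcases h with rfl | rfl | rfl | rfl | rfl | rfl <;> first | omega | simp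
  obtain ⟨a2, b2⟩ := key χ2 (by simp) d2
  obtain ⟨ψ, p1, p2, p3, p4⟩ := mul6 χ2 (by simp) d2
  obtain rfl : ψ = χ3 := (two ψ p1 p2).resolve_left p3
  have hl3 : ∀ g, g ^ 3 = 1 → l g = 1 := fun g hg => (hl2 g).resolve_right fun e => by
    have := congrArg l hg
    rw [map_pow, e, map_one] at this
    norm_num at this
  have real : ∀ g, g ^ 3 = 1 → conj (χ2.1 g) = χ2.1 g := fun g hg => by
    obtain ⟨c, d⟩ := mem6 ⟨_, irr_conj χ2.2⟩ (by simp only [a2, map_ofNat]) (by simp [b2])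
    rcases two _ c d with e | e
    · exact congrFun (congrArg Subtype.val e) g
    · exact (congrFun (congrArg Subtype.val e) g).trans (by rw [p4, Pi.mul_apply, hl3 g hg, mul_one])
  have v27 : ∀ χ : IrrCharacter G, iv χ 1 = 27 → ∀ g, orderOf g = 3 → χ.1 g = 0 := fun χ h g hg =>
    defect_zero_vanish χ.2 (n := 27) (m := 448) Nat.prime_three (by rw [e1, h]; simp) D.card
      (by norm_num) hg.symm.dvd
  have s6 : χ6.1 D.s = 1 := by rw [B.val_s (by simp), d6]; simp [A]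
  have v64 : ∀ g, orderOf g = 3 → conj (χ6.1 g) = 2 * χ2.1 g - 2 := fun g hg => by
    have hg3 : g ^ 3 = 1 := hg ▸ pow_orderOf_eq_one g
    have := B.col (D.not_conj_s hg3 (by norm_num))
    simp only [List.map_cons, List.map_nil, List.sum_cons, List.sum_nil, ← hl, p4, Pi.mul_apply,
      hs, hl3 g hg3, v27 _ d4 g hg, v27 _ d5 g hg, b2, s6, real g hg3, map_one, map_zero,
      mul_one] at this
    linear_combination this
  refine ⟨χ2, a2, b2, real, fun g h hg hh => ?_⟩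
  have hg3 : g ^ 3 = 1 := hg ▸ pow_orderOf_eq_one g
  have hh3 : h ^ 3 = 1 := hh ▸ pow_orderOf_eq_one h
  rw [B.mult]
  simp only [List.map_cons, List.map_nil, List.sum_cons, List.sum_nil, ← hl, p4, Pi.mul_apply,
    hs, hl3 g hg3, hl3 h hh3, v27 _ d4 g hg, v27 _ d5 g hg, b2, s6, real g hg3, real h hh3, map_one,
    map_zero, mul_one, v64 g hg, v64 h hh, a2, e1 χ6, d6]
  push_cast
  ring

end CfsgH2.G22
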