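import Cfsg.Agent.H2.G22E
import Cfsg.Agent.H8.Heis3

/-! Groups of order `12096` whose element orders divide `12`, `8` or `7`: the Sylow
`3`-subgroups are extraspecial and intersect trivially. -/

set_option autoImplicit false
set_option linter.style.haveILetI false

namespace CfsgH2.G22

open Subgroup MulAction Cfsg CfsgL CfsgH8 CfsgH3
open scoped ComplexConjugate

universe u

variable {G : Type u} [Group G] [Finite G]

theorem card_le_of_comm (N A C : Subgroup G) (x : G)
    (hA : ∀ u ∈ N, u * x * u⁻¹ * x⁻¹ ∈ A) (hC : ∀ y : G, y * x = x * y → y ∈ C) :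
    Nat.card N ≤ Nat.card A * Nat.card C := by
  classical
  let s : G → G := fun y => if h : ∃ u : G, u * x * u⁻¹ = y then h.choose else 1
  have hs : ∀ u : G, s (u * x * u⁻¹) * x * (s (u * x * u⁻¹))⁻¹ = u * x * u⁻¹ := fun u => by
    have h : ∃ v : G, v * x * v⁻¹ = u * x * u⁻¹ := ⟨u, rfl⟩
    simp only [s, dif_pos h]
    exact h.choose_spec
  have := Nat.card_le_card_of_injective (fun u : N => ((⟨u * x * (u : G)⁻¹ * x⁻¹, hA u u.2⟩,
    ⟨(s (u * x * (u : G)⁻¹))⁻¹ * u, hC _ (by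
        have := hs u
        generalize s (u * x * (u : G)⁻¹) = v at this ⊢
        calc v⁻¹ * u * x = v⁻¹ * (u * x * (u : G)⁻¹) * u := by group
          _ = _ := by rw [← this]; group)⟩) : A × C)) (fun u v h => by
    have h1 : (u : G) * x * (u : G)⁻¹ = v * x * (v : G)⁻¹ :=
      mul_right_cancel (b := x⁻¹) (congrArg (fun t : A × C => (t.1 : G)) h)
    have h2 : (s (u * x * (u : G)⁻¹))⁻¹ * u = (s (v * x * (v : G)⁻¹))⁻¹ * v :=
      congrArg (fun t : A × C => (t.2 : G)) h
    rw [h1] at h2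
    exact Subtype.ext (mul_left_cancel h2))
  rwa [Nat.card_prod] at this

omit [Finite G] in
theorem card_rel {A B : Subgroup G} (h : A ≤ B) : Nat.card B = Nat.card A * A.relIndex B := by
  rw [← relIndex_bot_left, ← relIndex_mul_relIndex ⊥ A B bot_le h, relIndex_bot_left]

theorem mem_of_card_le {H K : Subgroup G} (hHK : H ≤ K) (h : Nat.card K ≤ 2 * Nat.card H) {x : G}
    (hx : x ∈ K) (h3 : x ^ 3 = 1) : x ∈ H := by
  have h1 := card_rel hHK
  have h2 : H.relIndex K ≠ 0 := index_ne_zero_of_finite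
  have h4 : H.relIndex K ≤ 2 := Nat.le_of_mul_le_mul_left (by rw [← h1, mul_comm]; exact h)
    (Nat.card_pos (α := H))
  by_cases h5 : H.relIndex K = 1
  · exact relIndex_eq_one.1 h5 hx
  have h6 : x * x ∈ H := mul_self_mem_of_index_two (H := H.subgroupOf K)
    (show H.relIndex K = 2 by omega) ⟨x, hx⟩
  have := H.mul_mem h6 h6
  rwa [show x * x * (x * x) = x * x ^ 3 by rw [pow_succ, pow_two]; group, h3, mul_one] at this

theorem sum_nat {χ : G → ℂ} (hχ : IsCharacter G χ) (H : Subgroup G) [Fintype H] :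
    ∃ m : ℕ, ∑ x : H, χ x = Nat.card H * m := by
  obtain ⟨m, hm⟩ := char_inner_nat (char_restrict H hχ) char_one
  have h1 := sum_mul_conj_eq (fun d : H => χ d) (fun _ => 1)
  simp only [map_one, mul_one, hm] at h1
  exact ⟨m, h1⟩

theorem pow_cases {g : G} (hg : orderOf g = 3) {x : G} (hx : x ∈ zpowers g) (h1 : x ≠ 1) :
    x = g ∨ x = g⁻¹ := by
  classical
  obtain ⟨k, hk, rfl⟩ := Finset.mem_image.1 ((mem_zpowers_iff_mem_range_orderOf).1 hx)
  rw [hg, Finset.mem_range] at hk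
  interval_cases k
  · simp at h1
  · simp
  · exact Or.inr (eq_inv_of_mul_eq_one_left (by
      rw [← pow_succ]; exact (hg ▸ pow_orderOf_eq_one g : g ^ 3 = 1)))

/-- the classes of elements of order `3` -/
structure Typ (D : Dat G) (T : G → Prop) : Prop where
  inv : ∀ g, orderOf g = 3 → T g → T g⁻¹
  cB : ∀ g, orderOf g = 3 → ¬ T g → Nat.card (centralizer ({g} : Set G)) ∣ 18
  cA : ∀ g, orderOf g = 3 → T g → Nat.card (centralizer ({g} : Set G)) ≤ 216
  two : ∀ Q : Subgroup G, (∀ x ∈ Q, x ^ 3 = 1) → ∀ x ∈ Q, ∀ y ∈ Q, T x → T y → y = x ∨ y = x⁻¹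

theorem Dat.exists_typ (D : Dat G) : ∃ T, Typ D T := by
  classical
  haveI : Fact (Nat.Prime 3) := ⟨Nat.prime_three⟩
  obtain ⟨α, a1, a2, real, mult⟩ := D.exists_alpha
  have hα := irr_isChar α.2
  have inv : ∀ g, orderOf g = 3 → α.1 g⁻¹ = α.1 g := fun g hg => by
    rw [char_apply_inv hα, real g (hg ▸ pow_orderOf_eq_one g)]
  have const : ∀ g, orderOf g = 3 → ∀ x ∈ zpowers g, x ≠ 1 → α.1 x = α.1 g := fun g hg x hx h => by
    rcases pow_cases hg hx h with rfl | rfl
    · rfl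
    · exact inv g hg
  have val : ∀ g, orderOf g = 3 → α.1 g = 0 ∨ α.1 g = -3 := fun g hg => by
    obtain ⟨v, hv⟩ := char_int_of_pow_eq hα g fun k hk => const g hg _ (pow_mem (mem_zpowers g) k)
      fun e => by
        rw [hg] at hk
        exact absurd (hk.symm.eq_one_of_dvd (hg ▸ orderOf_dvd_of_pow_eq_one e)) (by norm_num)
    letI := Fintype.ofFinite (zpowers g)
    obtain ⟨m, hm⟩ := sum_nat hα (zpowers g)
    rw [sum_const_off_one _ (α.1 g) fun x h => const g hg _ x.2 fun e => h (Subtype.ext e),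
      Nat.card_zpowers, hg, OneMemClass.coe_one, a1, hv] at hm
    have h1 : 6 + 2 * v = 3 * m := by
      refine Int.cast_injective (α := ℂ) ?_
      push_cast at hm ⊢
      linear_combination hm
    have h2 := char_norm_le hα g
    rw [hv, a1, Complex.norm_intCast, Complex.norm_ofNat] at h2
    have h3 : |v| ≤ 6 := by exact_mod_cast h2
    have h4 : v ≠ 6 := by
      rintro rfl
      have := D.eq_one_of_norm (χ := α) (g := g) (by rw [a1, a2]; norm_num) (by simp [hv, a1])
      simp [this] at hg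
    have h5 : v ≠ 3 := by
      rintro rfl
      have := mult g g hg hg
      rw [hv] at this
      have : ((D.cnt g g * Nat.card (centralizer ({g} : Set G)) *
          Nat.card (centralizer ({g} : Set G)) + 9072 : ℕ) : ℂ) = (0 : ℕ) := by
        push_cast at this ⊢
        linear_combination this
      have := Nat.cast_injective this
      omega
    rw [abs_le] at h3
    obtain rfl | rfl : v = 0 ∨ v = -3 := by omega
    · exact Or.inl (by simpa using hv)
    · exact Or.inr (by simpa using hv)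
  have hu : α.1 D.u = 0 := (val _ D.order_u).resolve_right fun h => by
    have h1 := mult D.u D.u⁻¹ D.order_u (by simp [D.order_u])
    rw [inv _ D.order_u, h] at h1
    have h2 : 0 < D.cnt D.u D.u⁻¹ := Nat.card_pos_iff.2 ⟨⟨⟨(D.u, D.s * D.u⁻¹ * D.s⁻¹),
      IsConj.refl _, isConj_iff.2 ⟨_, rfl⟩, by
        simp only [← mul_assoc]
        rw [D.hu, pow_two, mul_inv_cancel_right]⟩⟩, inferInstance⟩
    have h3 : ((D.cnt D.u D.u⁻¹ * Nat.card (centralizer ({D.u} : Set G)) *
        Nat.card (centralizer ({D.u⁻¹} : Set G)) : ℕ) : ℂ) = (0 : ℕ) := by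
      push_cast
      linear_combination h1
    exact (mul_pos (mul_pos h2 Nat.card_pos) Nat.card_pos).ne' (Nat.cast_injective h3)
  refine ⟨fun g => α.1 g = -3, fun g hg h => (inv g hg).trans h, fun g hg h => ?_,
    fun g hg h => ?_, fun Q hQ x hx y hy h1 h2 => ?_⟩
  · have h1 := mult g g hg hg
    rw [(val g hg).resolve_right h] at h1
    have h2 : ((D.cnt g g * (Nat.card (centralizer ({g} : Set G)) *
        Nat.card (centralizer ({g} : Set G))) : ℕ) : ℂ) = (24948 : ℕ) := by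
      push_cast
      linear_combination h1
    have h3 := Dvd.intro_left _ (Nat.cast_injective h2)
    exact (show ∀ c, c < 158 → c * c ∣ 24948 → c ∣ 18 by decide +kernel) _
      (by nlinarith [Nat.le_of_dvd (by norm_num) h3]) h3
  · have h1 := mult g D.u hg D.order_u
    obtain ⟨k, hk⟩ : 2 * 3 ∣ Nat.card (centralizer ({D.u} : Set G)) :=
      Nat.Coprime.mul_dvd_of_dvd_of_dvd (by norm_num) (D.order_i ▸ orderOf_dvd_natCard _
        (mem_centralizer_singleton_iff.2 ((Commute.refl D.t).pow_pow 3 2)))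
      (D.order_u ▸ orderOf_dvd_natCard _ (mem_centralizer_singleton_iff.2 rfl))
    rw [h, hu, hk] at h1
    have h2 : ((D.cnt g D.u * k * Nat.card (centralizer ({g} : Set G)) : ℕ) : ℂ) = (4536 : ℕ) := by
      push_cast at h1 ⊢
      linear_combination (1 / 6) * h1
    have h3 := D.ord.not_seven (g := g) (n := 3) (by rintro rfl; simp at hg)
      (hg ▸ pow_orderOf_eq_one g) (by norm_num)
    have h4 : Nat.card (centralizer ({g} : Set G)) ∣ 1728 := Nat.Coprime.dvd_of_dvd_mul_left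
      ((Nat.Prime.coprime_iff_not_dvd (by norm_num)).2 h3).symm
      ((card_subgroup_dvd_card _).trans D.card.dvd)
    exact Nat.le_of_dvd (by norm_num) (Nat.dvd_gcd (Dvd.intro_left _ (Nat.cast_injective h2)) h4)
  · by_contra! h
    have ne : ∀ x, α.1 x = -3 → x ≠ 1 := by
      rintro _ h rfl
      norm_num [a1] at h
    have o3 : ∀ x ∈ Q, x ≠ 1 → orderOf x = 3 := fun x hx h => orderOf_eq_prime (hQ x hx) h
    have hxx : x ≠ x⁻¹ := fun e => ne x h1 (by
      have := hQ x hx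
      rwa [pow_succ, pow_two, mul_eq_one_iff_eq_inv.2 e, one_mul] at this)
    letI := Fintype.ofFinite Q
    obtain ⟨m, hm⟩ := sum_nat hα Q
    let S : Finset Q := {1, ⟨x, hx⟩, ⟨x⁻¹, Q.inv_mem hx⟩, ⟨y, hy⟩}
    have h3 := Finset.sum_le_sum_of_subset_of_nonneg (f := fun x : Q => -(α.1 x).re)
      (Finset.subset_univ S) fun z _ hz => by
        rcases val _ (o3 z z.2 fun e => hz (by simp [S, show z = 1 from Subtype.ext e])) with
          e | e <;> simp [e]
    rw [Finset.sum_neg_distrib (s := Finset.univ), ← Complex.re_sum, hm,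
      Finset.sum_insert (by simp [Subtype.ext_iff, (ne x h1).symm, (ne y h2).symm, ne x h1]),
      Finset.sum_insert (by simp [hxx, h.1.symm]), Finset.sum_pair (by simp [h.2.symm])] at h3
    simp only [OneMemClass.coe_one, a1, h1, h2, inv x (o3 x hx (ne x h1)), ← Nat.cast_mul,
      Complex.natCast_re] at h3
    have : (0 : ℝ) ≤ (Nat.card Q * m : ℕ) := Nat.cast_nonneg _
    norm_num at h3 this
    linarith

/-- the centre of a Sylow `3`-subgroup -/
structure Cen (T : G → Prop) (Q : Subgroup G) (z : G) : Prop where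
  mem : z ∈ Q
  ord : orderOf z = 3
  le : Q ≤ centralizer {z}
  typ : T z
  only : ∀ x ∈ Q, T x → x ∈ zpowers z
  comm : ∀ a ∈ Q, ∀ b ∈ Q, a * b * a⁻¹ * b⁻¹ ∈ zpowers z
  ncomm : ∃ a ∈ Q, ∃ b ∈ Q, b * a ≠ a * b

instance : Fact (Nat.Prime 3) := ⟨Nat.prime_three⟩

theorem Dat.card_syl (D : Dat G) (Q : Sylow 3 G) : Nat.card Q = 27 := by
  rw [Q.card_eq_multiplicity, D.card]; decide +kernel

theorem Dat.cube (D : Dat G) (Q : Sylow 3 G) : ∀ x ∈ Q.1, x ^ 3 = 1 := fun x hx =>
  D.ord.cube (k := 3) (by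
    have := congrArg Subtype.val (pow_card_eq_one' (x := (⟨x, hx⟩ : Q.1)))
    rwa [D.card_syl] at this)

namespace Typ

variable {D : Dat G} {T : G → Prop} (H : Typ D T)
include H

theorem of_le {Q : Sylow 3 G} {z : G} (hz : orderOf z = 3) (h : Q.1 ≤ centralizer {z}) : T z := by
  by_contra h1
  have := (card_dvd_of_le h).trans (H.cB z hz h1)
  rw [D.card_syl] at this
  norm_num at this

theorem exists_cen (Q : Sylow 3 G) : ∃ z, Cen T Q z := by
  obtain ⟨z, h1, h2, h3⟩ := exists_central (p := 3) (n := 2) Q.1 (D.card_syl Q)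
  have h4 := H.of_le h2 h3
  have h5 : ∀ x ∈ Q.1, T x → x ∈ zpowers z := fun x hx h => by
    rcases H.two Q (D.cube Q) z h1 x hx h4 h with rfl | rfl
    · exact mem_zpowers _
    · exact inv_mem (mem_zpowers _)
  have h6 : center Q = (zpowers z).subgroupOf Q := by
    refine le_antisymm (fun x hx => ?_) fun x hx => mem_center_iff.2 fun g => Subtype.ext ?_
    · by_cases h : (x : G) = 1
      · exact mem_subgroupOf.2 (h ▸ one_mem _)
      · exact h5 x x.2 (H.of_le (Q := Q) (orderOf_eq_prime (D.cube Q x x.2) h) fun g hg =>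
          mem_centralizer_singleton_iff.2 (congrArg Subtype.val (mem_center_iff.1 hx ⟨g, hg⟩)))
    · obtain ⟨k, hk⟩ := mem_subgroupOf.1 hx
      have := (show Commute (g : G) z from mem_centralizer_singleton_iff.1 (h3 g.2)).zpow_right k
      simp only at hk
      rwa [hk] at this
  have h7 : Nat.card (center Q) = 3 := by
    rw [h6, Nat.card_congr (subgroupOfEquivOfLe (zpowers_le.2 h1)).toEquiv, Nat.card_zpowers, h2]
  have h8 := (center Q).card_mul_index
  rw [h7, D.card_syl] at h8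
  have h9 : commutator Q ≤ center Q := Normal.quotient_commutative_iff_commutator_le.1
    (IsPGroup.isMulCommutative_of_card_eq_prime_sq (p := 3)
      (show (center Q).index = 3 ^ 2 by omega))
  refine ⟨z, h1, h2, h3, h4, h5, fun a ha b hb => ?_, ?_⟩
  · exact mem_subgroupOf.1 (h6 ▸ h9 (commutator_mem_commutator (mem_top (⟨a, ha⟩ : Q))
      (mem_top (⟨b, hb⟩ : Q))))
  · by_contra! h
    have : center Q = ⊤ := eq_top_iff.2 fun x _ => mem_center_iff.2 fun y =>
      Subtype.ext (h x x.2 y y.2)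
    rw [this, card_top, D.card_syl] at h7
    omega

theorem mem_of_mem {Q R : Sylow 3 G} {z w g : G} (hz : Cen T Q z) (hw : Cen T R w) (hQ : g ∈ Q.1)
    (hR : g ∈ R.1) (h1 : g ≠ 1) : w ∈ Q.1 := by
  have hg := orderOf_eq_prime (D.cube Q g hQ) h1
  by_cases h : T g
  · have := eq_of_le_of_card_ge (zpowers_le.2 (hw.only g hR h))
      (by rw [Nat.card_zpowers, Nat.card_zpowers, hg, hw.ord])
    exact zpowers_le.2 hQ (this ▸ mem_zpowers w)
  have key : ∀ {Q : Sylow 3 G} {z : G}, Cen T Q z → g ∈ Q.1 → z ∈ centralizer {g} :=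
    fun hz hQ => mem_centralizer_singleton_iff.2 (mem_centralizer_singleton_iff.1 (hz.le hQ)).symm
  have h2 : zpowers z ≤ centralizer {g} ⊓ Q.1 := zpowers_le.2 ⟨key hz hQ, hz.mem⟩
  have h3 : ¬ Nat.card (centralizer {g} ⊓ Q.1 : Subgroup G) ≤ 3 := fun e => h (by
    have e1 := eq_of_le_of_card_ge h2 (by rwa [Nat.card_zpowers, hz.ord])
    rcases pow_cases hz.ord (e1 ▸ ⟨mem_centralizer_singleton_iff.2 rfl, hQ⟩) h1 with rfl | rfl
    · exact hz.typ
    · exact H.inv _ hz.ord hz.typ)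
  have h4 : Nat.card (centralizer {g} ⊓ Q.1 : Subgroup G) ∣ 27 :=
    D.card_syl Q ▸ card_dvd_of_le inf_le_right
  have h5 := (show ∀ n, n < 28 → n ∣ 27 → ¬ n ≤ 3 → 9 ≤ n by decide) _
    (Nat.lt_succ_of_le (Nat.le_of_dvd (by norm_num) h4)) h4 h3
  have h6 := Nat.le_of_dvd (by norm_num) (H.cB g hg h)
  exact (mem_of_card_le (H := centralizer {g} ⊓ Q.1) inf_le_left (by omega) (key hw hR)
    (hw.ord ▸ pow_orderOf_eq_one w)).2

theorem ti {Q R : Sylow 3 G} {g : G} (hQ : g ∈ Q.1) (hR : g ∈ R.1) (h1 : g ≠ 1) : Q = R := by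
  obtain ⟨z, hz⟩ := H.exists_cen Q
  obtain ⟨w, hw⟩ := H.exists_cen R
  have h2 : zpowers z = zpowers w := le_antisymm
    (zpowers_le.2 (hw.only z (H.mem_of_mem hw hz hR hQ h1) hz.typ))
    (zpowers_le.2 (hz.only w (H.mem_of_mem hz hw hQ hR h1) hw.typ))
  have h3 : R.1 ≤ centralizer {z} := fun x hx => by
    obtain ⟨k, rfl⟩ := h2 ▸ mem_zpowers z
    exact mem_centralizer_singleton_iff.2
      ((show Commute x w from mem_centralizer_singleton_iff.1 (hw.le hx)).zpow_right k)
  obtain ⟨h, ⟨hQ, hR⟩, h4⟩ : ∃ h ∈ Q.1 ⊓ R.1, h ∉ zpowers z := by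
    by_contra! h
    have e1 := card_le_of_le (show Q.1 ⊓ R.1 ≤ zpowers z from h)
    have e2 := card_rel (inf_le_right : Q.1 ⊓ R.1 ≤ R.1)
    have e3 := card_rel hz.le
    have e4 := relIndex_le_of_le_right (H := Q.1) h3 index_ne_zero_of_finite
    have e5 := H.cA z hz.ord hz.typ
    rw [Nat.card_zpowers, hz.ord] at e1
    rw [inf_relIndex_right, D.card_syl] at e2
    rw [D.card_syl] at e3
    nlinarith
  have cz : ∀ c, c * z = z * c → ∀ y ∈ zpowers z, c * y * c⁻¹ = y := by
    rintro c hc _ ⟨k, rfl⟩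
    exact mul_inv_eq_iff_eq_mul.2 ((show Commute c z from hc).zpow_right k)
  let C : Subgroup G :=
    { carrier := {c | c * z = z * c ∧ c * h * c⁻¹ * h⁻¹ ∈ zpowers z}
      one_mem' := ⟨by simp, by simp⟩
      mul_mem' := fun {c d} hc hd => ⟨Commute.mul_left hc.1 hd.1, by
        have := mul_mem (cz c hc.1 _ hd.2 ▸ hd.2) hc.2
        rwa [show c * d * h * (c * d)⁻¹ * h⁻¹ =
          c * (d * h * d⁻¹ * h⁻¹) * c⁻¹ * (c * h * c⁻¹ * h⁻¹) by group]⟩
      inv_mem' := fun {c} hc => ⟨Commute.inv_left hc.1, by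
        rw [show c⁻¹ * h * c⁻¹⁻¹ * h⁻¹ = c⁻¹ * (c * h * c⁻¹ * h⁻¹)⁻¹ * c⁻¹⁻¹ by group,
          cz c⁻¹ (Commute.inv_left hc.1) _ (inv_mem hc.2)]
        exact inv_mem hc.2⟩ }
  have h5 := card_le_of_comm C (zpowers z) (centralizer {h}) h (fun u hu => hu.2)
    fun y hy => mem_centralizer_singleton_iff.2 hy
  have h6 := Nat.le_of_dvd (by norm_num) (H.cB h (orderOf_eq_prime (D.cube Q h hQ)
    (by rintro rfl; exact h4 (one_mem _))) fun e => h4 (hz.only h hQ e))
  rw [Nat.card_zpowers, hz.ord] at h5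
  refine Sylow.ext (eq_of_le_of_card_ge (fun x hx => ?_) (by rw [D.card_syl, D.card_syl])).symm
  exact mem_of_card_le (K := C) (fun c hc => ⟨mem_centralizer_singleton_iff.1 (hz.le hc),
    hz.comm c hc h hQ⟩) (by rw [D.card_syl]; omega) ⟨mem_centralizer_singleton_iff.1 (h3 hx),
      h2 ▸ hw.comm x hx h hR⟩ (D.cube R x hx)

theorem exists_heis (Q : Sylow 3 G) :
    ∃ f : CfsgH8.Heis (ZMod 3) →* G, Function.Injective f ∧ f.range = Q := by
  obtain ⟨z, hz⟩ := H.exists_cen Q
  obtain ⟨a, ha, b, hb, hab⟩ := hz.ncomm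
  obtain ⟨k, hk⟩ := hz.comm b hb a ha
  have hc : b * a * b⁻¹ * a⁻¹ ∈ Q.1 := mul_mem (mul_mem (mul_mem hb ha) (inv_mem hb)) (inv_mem ha)
  have key : ∀ x ∈ Q.1, Commute (b * a * b⁻¹ * a⁻¹) x := fun x hx => hk ▸
    ((show Commute x z from mem_centralizer_singleton_iff.1 (hz.le hx)).zpow_right k).symm
  have hrel : b * a = (b * a * b⁻¹ * a⁻¹) * (a * b) := by group
  have hinj := heisLift_injective (D.cube Q a ha) (D.cube Q b hb) (D.cube Q _ hc) (key a ha)
    (key b hb) hrel fun h => hab (by rw [hrel, h, one_mul])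
  refine ⟨_, hinj, eq_of_le_of_card_ge ?_ ?_⟩
  · rintro _ ⟨w, rfl⟩
    exact mul_mem (mul_mem (pow_mem ha _) (pow_mem hb _)) (pow_mem hc _)
  · rw [D.card_syl, ← Nat.card_congr (MonoidHom.ofInjective hinj).toEquiv, Heis.card_zmod_three]

end Typ

end CfsgH2.G22
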