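import Cfsg.Agent.H2.U28
import Cfsg.Agent.H8.Heis3

/-! Coordinates for a doubly transitive group of degree `28` with regular normal `3^(1+2)` in the
point stabilizer and two point stabilizer of order `16`. -/

set_option autoImplicit false
set_option maxRecDepth 100000
set_option linter.style.haveILetI false

namespace CfsgH2.U28

open CfsgH9 CfsgH8 Subgroup MulAction
open scoped Pointwise

/-- the Heisenberg group of order `27` -/
abbrev H3 : Type := Heis (ZMod 3)

instance instDecEqH3 : DecidableEq H3 := (Heis.equivProd _).decidableEq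

instance instFintypeH3 : Fintype H3 := Fintype.ofEquiv _ (Heis.equivProd _).symm

/-- the endomorphism with given parameters -/
def endOf (p q r s e f : ZMod 3) : H3 →* H3 :=
  MonoidHom.mk' (fun w => ⟨p * w.x + q * w.y, r * w.x + s * w.y,
    e * w.x + f * w.y + (p * s - q * r) * w.t⟩) fun v w => by
      ext <;> simp <;> ring

theorem endOf_inj {p q r s : ZMod 3} (e f : ZMod 3) (h : p * s - q * r ≠ 0) :
    Function.Injective (endOf p q r s e f) := by
  rw [injective_iff_map_eq_one]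
  intro w hw
  have h1 : p * w.x + q * w.y = 0 := congrArg Heis.x hw
  have h2 : r * w.x + s * w.y = 0 := congrArg Heis.y hw
  have h3 : e * w.x + f * w.y + (p * s - q * r) * w.t = 0 := congrArg Heis.t hw
  haveI : Fact (Nat.Prime 3) := ⟨Nat.prime_three⟩
  have hx : w.x = 0 := (mul_eq_zero.1 (show (p * s - q * r) * w.x = 0 by
    linear_combination s * h1 - q * h2)).resolve_left h
  have hy : w.y = 0 := (mul_eq_zero.1 (show (p * s - q * r) * w.y = 0 by
    linear_combination p * h2 - r * h1)).resolve_left h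
  rw [hx, hy] at h3
  exact Heis.ext hx hy ((mul_eq_zero.1 (by simpa using h3)).resolve_left h)

/-- the automorphism with given parameters -/
noncomputable def autOf (p q r s e f : ZMod 3) (h : p * s - q * r ≠ 0) : MulAut H3 :=
  MulEquiv.ofBijective (endOf p q r s e f) (Finite.injective_iff_bijective.1 (endOf_inj e f h))

theorem card_aut : Nat.card (MulAut H3) = 432 := by
  let T := {v : H3 × H3 // v.1.x * v.2.y - v.2.x * v.1.y ≠ 0}
  have hT : Fintype.card T = 432 := by decide +kernel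
  rw [← hT, ← Nat.card_eq_fintype_card]
  refine Nat.card_eq_of_bijective (fun β => ⟨(β ⟨1, 0, 0⟩, β ⟨0, 1, 0⟩), fun h => ?_⟩)
    ⟨fun β γ h => ?_, fun v => ⟨autOf v.1.1.x v.1.2.x v.1.1.y v.1.2.y v.1.1.t v.1.2.t v.2, ?_⟩⟩
  · have h1 := Heis.aut_center β
    have h2 : (Heis.matOf β).det = 0 := by rw [Matrix.det_fin_two]; exact h
    rw [h2] at h1
    exact absurd (β.injective (h1.trans (map_one β).symm)) (by decide)
  · have h1 : β ⟨1, 0, 0⟩ = γ ⟨1, 0, 0⟩ := congrArg (fun t : T => t.1.1) h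
    have h2 : β ⟨0, 1, 0⟩ = γ ⟨0, 1, 0⟩ := congrArg (fun t : T => t.1.2) h
    have h3 : Heis.matOf β = Heis.matOf γ := by simp only [Heis.matOf, h1, h2]
    ext1 w
    rw [Heis.aut_formula β, Heis.aut_formula γ, h1, h2, h3]
  · refine Subtype.ext (Prod.ext ?_ ?_) <;> ext <;> simp [autOf, endOf]

/-- numbering of the points -/
def pt : Option H3 ≃ Fin 28 where
  toFun o := match o with
    | none => 27
    | some w => ⟨w.x.val + 3 * w.y.val + 9 * w.t.val, by
        have := w.x.val_lt; have := w.y.val_lt; have := w.t.val_lt; omega⟩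
  invFun n := if n = 27 then none else some ⟨(n.val : ℕ), (n.val / 3 : ℕ), (n.val / 9 : ℕ)⟩
  left_inv := by decide +kernel
  right_inv := by decide +kernel

/-- automorphisms as permutations -/
def Φ : MulAut H3 →* Equiv.Perm (Fin 28) :=
  pt.permCongrHom.toMonoidHom.comp (toPermHom (MulAut H3) (Option H3))

/-- translations as permutations -/
def Ψ : H3 →* Equiv.Perm (Fin 28) :=
  pt.permCongrHom.toMonoidHom.comp (toPermHom H3 (Option H3))

theorem Φ_pt (β : MulAut H3) (o : Option H3) : Φ β (pt o) = pt (β • o) := by simp [Φ]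

theorem Ψ_pt (u : H3) (o : Option H3) : Ψ u (pt o) = pt (u • o) := by simp [Ψ]

theorem Φ_inj : Function.Injective Φ := fun β γ h => by
  ext1 w
  have := Φ_pt β (some w)
  rw [h, Φ_pt] at this
  exact (Option.some.inj (pt.injective this)).symm

theorem enc_Ψ : ∀ n, n < 27 → ∃ u, MM.enc (Ψ u) = Q0.get n := by
  simp only [enc_eq]
  decide +kernel

theorem enc_Φ : ∀ c ∈ Dl, ∃ β, MM.enc (Φ β) = c := by
  have : ∀ c ∈ Dl, ∃ p q r s : ZMod 3, ∃ h : p * s - q * r ≠ 0,
      pack 5 (permFn (Φ (autOf p q r s 0 0 h))) 28 = c := by decide +kernel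
  intro c hc
  obtain ⟨p, q, r, s, h, e⟩ := this c hc
  exact ⟨_, (enc_eq _).trans e⟩

/-- the standard Sylow `2`-subgroup -/
noncomputable def D0 : Subgroup (MulAut H3) where
  carrier := {β | MM.enc (Φ β) ∈ Dl}
  one_mem' := by
    change MM.enc (Φ 1) ∈ Dl
    rw [map_one, MM.enc_one]
    decide +kernel
  mul_mem' := fun {a b} ha hb => by
    change MM.enc (Φ (a * b)) ∈ Dl
    rw [map_mul, MM.enc_mul]
    exact (show ∀ c ∈ Dl, ∀ d ∈ Dl, MM.mul c d ∈ Dl by decide +kernel) _ ha _ hb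
  inv_mem' := fun {a} ha => by
    obtain ⟨d, hd, e⟩ := (show ∀ c ∈ Dl, ∃ d ∈ Dl, MM.mul c d = MM.one by decide +kernel) _ ha
    obtain ⟨β, rfl⟩ := enc_Φ d hd
    rw [← MM.enc_mul, ← MM.enc_one, ← map_mul, ← map_one Φ] at e
    rwa [← eq_inv_of_mul_eq_one_right (Φ_inj (MM.enc_inj e))]

theorem mem_D0 {β : MulAut H3} : β ∈ D0 ↔ MM.enc (Φ β) ∈ Dl := Iff.rfl

theorem card_of_list {A : Type*} (S : Set A) (f : A → ℕ) (hf : Function.Injective f) (L : List ℕ)
    (h1 : ∀ a, a ∈ S ↔ f a ∈ L) (h2 : ∀ c ∈ L, ∃ a, f a = c) :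
    Nat.card S = L.toFinset.card := by
  rw [← Nat.card_eq_finsetCard]
  refine Nat.card_eq_of_bijective (fun β => ⟨f β, List.mem_toFinset.2 ((h1 _).1 β.2)⟩)
    ⟨fun β γ h => Subtype.ext (hf (congrArg Subtype.val h)), fun c => ?_⟩
  obtain ⟨β, e⟩ := h2 c (List.mem_toFinset.1 c.2)
  exact ⟨⟨β, (h1 _).2 (by rw [e]; exact List.mem_toFinset.1 c.2)⟩, Subtype.ext e⟩

theorem card_D0 : Nat.card D0 = 16 :=
  (card_of_list (D0 : Set (MulAut H3)) (fun β => MM.enc (Φ β))
    (fun _ _ h => Φ_inj (MM.enc_inj h)) Dl (fun _ => mem_D0) enc_Φ).trans (by decide +kernel)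

theorem exists_conj_D0 (P : Subgroup (MulAut H3)) (hP : Nat.card P = 16) :
    ∃ β : MulAut H3, ∀ δ, δ ∈ P ↔ β * δ * β⁻¹ ∈ D0 := by
  have key : ∀ P : Subgroup (MulAut H3), Nat.card P = 16 → ∃ S : Sylow 2 (MulAut H3), S.1 = P :=
    fun P hP => by
      have h1 := P.card_mul_index
      rw [hP, card_aut] at h1
      exact ⟨(IsPGroup.of_card (n := 4) hP).toSylow (by rw [show P.index = 27 by omega]; decide),
        rfl⟩
  obtain ⟨S, rfl⟩ := key P hP
  obtain ⟨T, hT⟩ := key D0 card_D0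
  obtain ⟨β, rfl⟩ := exists_smul_eq (MulAut H3) S T
  refine ⟨β, fun δ => ?_⟩
  rw [← hT]
  exact (smul_mem_pointwise_smul_iff (a := MulAut.conj β) (S := S.1) (x := δ)).symm

theorem exists_good {G Ω : Type*} [Group G] [MulAction G Ω]
    (hf : ∀ g : G, (∀ ω : Ω, g • ω = ω) → g = 1) (H : H3 →* G) {a b : Ω} (hab : b ≠ a)
    (hfix : ∀ w, H w • a = a) (hinj : ∀ w, H w • b = b → w = 1)
    (hsurj : ∀ ω, ω ≠ a → ∃ w, H w • b = ω)
    (hn : stabilizer G a ≤ normalizer (H.range : Set G))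
    (hD : Nat.card (stabilizer G a ⊓ stabilizer G b : Subgroup G) = 16)
    (hsw : ∃ g : G, g • a = b ∧ g • b = a) :
    ∃ K : Subgroup (Equiv.Perm (Fin 28)), Good K ∧ Nonempty (G ≃* K) := by
  have hH : Function.Injective H := (injective_iff_map_eq_one H).2 fun w h =>
    hinj w (by rw [h, one_smul])
  let hR : H3 ≃* H.range := MonoidHom.ofInjective hH
  let α : (stabilizer G a ⊓ stabilizer G b : Subgroup G) →* MulAut H3 :=
    ((MulAut.congr hR.symm).toMonoidHom.comp H.range.normalizerMonoidHom).comp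
      (inclusion (inf_le_left.trans hn))
  have hα : ∀ g w, H (α g w) = g * H w * (g : G)⁻¹ := by
    intro g w
    have h1 : hR (α g w) = H.range.normalizerMonoidHom (inclusion (inf_le_left.trans hn) g)
      (hR w) := hR.apply_symm_apply _
    exact congrArg Subtype.val h1
  have hαi : Function.Injective α := (injective_iff_map_eq_one α).2 fun g hg =>
    Subtype.ext (hf _ fun ω => by
      by_cases h : ω = a
      · rw [h]; exact g.2.1
      obtain ⟨w, rfl⟩ := hsurj ω h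
      have h1 := hα g w
      rw [hg, MulAut.one_apply, eq_mul_inv_iff_mul_eq] at h1
      rw [← mul_smul, ← h1, mul_smul, show (g : G) • b = b from g.2.2])
  obtain ⟨β, hβ⟩ := exists_conj_D0 α.range
    ((Nat.card_congr (MonoidHom.ofInjective hαi).toEquiv).symm.trans hD)
  let f : Option H3 → Ω := fun o => o.elim a fun w => H (β⁻¹ w) • b
  have hne : ∀ w, H w • b ≠ a := fun w e => hab (by
    rw [← smul_left_cancel_iff (H w), e, hfix])
  have hfb : Function.Bijective f := by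
    constructor
    · rintro (_ | v) (_ | w) h
      · rfl
      · exact absurd h.symm (hne _)
      · exact absurd h (hne _)
      · have h1 : H (β⁻¹ v) • b = H (β⁻¹ w) • b := h
        have := hinj ((β⁻¹ w)⁻¹ * β⁻¹ v) (by rw [map_mul, mul_smul, h1, map_inv, inv_smul_smul])
        rw [inv_mul_eq_one] at this
        rw [β⁻¹.injective this]
    · intro ω
      by_cases h : ω = a
      · exact ⟨none, h.symm⟩
      obtain ⟨w, rfl⟩ := hsurj ω h
      exact ⟨some (β w), by simp [f]⟩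
  let ε : Option H3 ≃ Ω := Equiv.ofBijective f hfb
  let ρ : G →* Equiv.Perm (Fin 28) :=
    (ε.symm.trans pt).permCongrHom.toMonoidHom.comp (toPermHom G Ω)
  have hρ : ∀ g o o', ρ g (pt o) = pt o' ↔ g • f o = f o' := fun g o o' => by
    simp [ρ, Equiv.symm_apply_eq, ε]
  have hρ' : ∀ g (σ : Equiv.Perm (Fin 28)) (s : Option H3 → Option H3),
      (∀ o, σ (pt o) = pt (s o)) → (∀ o, g • f o = f (s o)) → ρ g = σ := fun g σ s h1 h2 => by
    ext1 n
    obtain ⟨o, rfl⟩ := pt.surjective n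
    rw [h1, hρ, h2]
  have hρD : ∀ g : (stabilizer G a ⊓ stabilizer G b : Subgroup G),
      ρ g = Φ (β * α g * β⁻¹) := fun g => hρ' _ _ _ (Φ_pt _) (by
    rintro (_ | w)
    · exact g.2.1
    · change (g : G) • H (β⁻¹ w) • b = H (β⁻¹ (β (α g (β⁻¹ w)))) • b
      rw [MulAut.inv_apply_self, hα, mul_smul, mul_smul, inv_smul_eq_iff.2 g.2.2.symm])
  have e0 : f (some 1) = b := by simp [f]
  refine ⟨ρ.range, ⟨fun n hn => ?_, fun c hc => ?_, ?_, ?_⟩, ⟨MonoidHom.ofInjective
    ((injective_iff_map_eq_one ρ).2 fun g hg => hf g fun ω => ?_)⟩⟩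
  · obtain ⟨u, e⟩ := enc_Ψ n hn
    refine ⟨_, ⟨H (β⁻¹ u), hρ' _ _ _ (Ψ_pt u) ?_⟩, e⟩
    rintro (_ | w)
    · exact hfix _
    · change _ • H (β⁻¹ w) • b = H (β⁻¹ (u * w)) • b
      rw [map_mul, map_mul, mul_smul]
  · obtain ⟨δ, e⟩ := enc_Φ c hc
    obtain ⟨g, hg⟩ := (hβ (β⁻¹ * δ * β)).2 (by
      rw [show β * (β⁻¹ * δ * β) * β⁻¹ = δ by group, mem_D0, e]; exact hc)
    refine ⟨_, ⟨g, hρD g⟩, ?_⟩
    rw [hg, show β * (β⁻¹ * δ * β) * β⁻¹ = δ by group, e]
  · rintro _ ⟨g, rfl⟩ h1 h2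
    have h3 : g • a = a := (hρ g none none).1 h1
    have h4 := (hρ g (some 1) (some 1)).1 h2
    rw [e0] at h4
    rw [hρD ⟨g, h3, h4⟩]
    exact mem_D0.1 ((hβ _).1 ⟨_, rfl⟩)
  · obtain ⟨g, h1, h2⟩ := hsw
    exact ⟨_, ⟨g, rfl⟩, (hρ g none (some 1)).2 (h1.trans e0.symm),
      (hρ g (some 1) none).2 (by rw [e0]; exact h2)⟩
  · obtain ⟨o, rfl⟩ := hfb.2 ω
    exact (hρ g o o).1 (by rw [hg]; rfl)

end CfsgH2.U28
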