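import Cfsg.Agent.H2.G22F
import Cfsg.Agent.H2.U28B
import Cfsg.Agent.H4.ElemAb

/-! Groups of order `12096` whose element orders divide `12`, `8` or `7` are isomorphic. -/

set_option autoImplicit false
set_option linter.style.haveILetI false

namespace CfsgH2.G22

open Subgroup MulAction Cfsg CfsgH2.U28

universe u

variable {G : Type u} [Group G] [Finite G]

theorem exists_good' (hG : Nat.card G = 12096) (ho : Ord G) :
    ∃ K : Subgroup (Equiv.Perm (Fin 28)), Good K ∧ Nonempty (G ≃* K) := by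
  classical
  obtain ⟨D⟩ := exists_dat hG ho
  obtain ⟨T, H⟩ := D.exists_typ
  have fix : ∀ (Q : Sylow 3 G), ∀ g ∈ Q.1, g • Q = Q := fun Q g hg =>
    Sylow.smul_eq_iff_mem_normalizer.2 (le_normalizer hg)
  have free : ∀ (Q R : Sylow 3 G), R ≠ Q → ∀ g ∈ Q.1, g • R = R → g = 1 := fun Q R h g hg e => by
    by_contra h1
    have : g ∈ Q.1 ⊓ R.1 := Q.2.inf_normalizer_sylow R ▸
      ⟨hg, Sylow.smul_eq_iff_mem_normalizer.1 e⟩
    exact h (H.ti hg this.2 h1).symm
  obtain ⟨Q⟩ : Nonempty (Sylow 3 G) := inferInstance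
  have h7 : ∀ K : Subgroup G, D.s ∈ K → 7 ∣ Nat.card K := fun K h => D.hs ▸ orderOf_dvd_natCard K h
  have hn : Nat.card (Sylow 3 G) = 28 := by
    letI := Fintype.ofFinite (Sylow 3 G)
    have h1 := CfsgH4.dvd_card_sub_one_of_orbits (H := Q.1) (α := Q) (q := 27)
      (fun g => fix Q g g.2) fun R hR => by
        rw [Nat.card_coe_set_eq, ← index_stabilizer, show stabilizer Q.1 R = ⊥ from
          eq_bot_iff.2 fun g hg => Subtype.ext (free Q R hR g g.2 hg), index_bot, D.card_syl]
    have h2 := Q.card_dvd_index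
    have h3 := Q.1.card_mul_index
    rw [D.card_syl, hG] at h3
    rw [show Q.1.index = 448 by omega] at h2
    rw [← Nat.card_eq_fintype_card] at h1
    refine ((show ∀ n, n < 449 → n ∣ 448 → 27 ∣ n - 1 → n = 1 ∨ n = 28 by decide +kernel) _
      (Nat.lt_succ_of_le (Nat.le_of_dvd (by norm_num) h2)) h2 h1).resolve_left fun h => ?_
    haveI := (Nat.card_eq_one_iff_unique.1 h).1
    haveI := Q.normal_of_subsingleton
    have := h7 _ (D.mem_normal Q.1 fun e => by simpa [e] using D.card_syl Q)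
    rw [D.card_syl] at this
    norm_num at this
  have hn' : ∀ Q : Sylow 3 G, Nat.card {S // S ≠ Q} = 27 := fun Q => by
    letI := Fintype.ofFinite (Sylow 3 G)
    rw [Nat.card_eq_fintype_card, Fintype.card_subtype_compl, Fintype.card_subtype_eq,
      ← Nat.card_eq_fintype_card, hn]
  have trans : ∀ (Q R S : Sylow 3 G), R ≠ Q → S ≠ Q → ∃ g ∈ Q.1, g • R = S := fun Q R S hR hS => by
    have hb : Function.Bijective (fun g : Q.1 => (⟨(g : G) • R, fun e => hR (by
        rw [← smul_left_cancel_iff (g : G), e, fix Q g g.2])⟩ : {S : Sylow 3 G // S ≠ Q})) := by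
      rw [Nat.bijective_iff_injective_and_card]
      refine ⟨fun a b h => ?_, by rw [D.card_syl, hn']⟩
      have h1 : (a : G) • R = (b : G) • R := congrArg Subtype.val h
      exact Subtype.ext (inv_mul_eq_one.1 (free Q R hR _ (mul_mem (inv_mem b.2) a.2)
        (by rw [mul_smul, h1, inv_smul_smul]))).symm
    obtain ⟨g, hg⟩ := hb.2 ⟨S, hS⟩
    exact ⟨g, g.2, congrArg Subtype.val hg⟩
  haveI : Nontrivial (Sylow 3 G) := Finite.one_lt_card_iff_nontrivial.1 (by omega)
  obtain ⟨R, hR⟩ := exists_ne Q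
  obtain ⟨f, hf, hfQ⟩ := H.exists_heis Q
  have hm : ∀ w, f w ∈ Q.1 := fun w => hfQ ▸ ⟨w, rfl⟩
  have hS : Nat.card (stabilizer G Q) = 432 := by
    have := (stabilizer G Q).card_mul_index
    rw [index_stabilizer_of_transitive, hn, hG] at this
    omega
  refine exists_good (Ω := Sylow 3 G) (fun g hg => ?_) f hR (fun w => fix Q _ (hm w))
    (fun w h => hf ((free Q R hR _ (hm w) h).trans (map_one f).symm)) (fun S h => ?_)
    (by rw [hfQ, Sylow.stabilizer_eq_normalizer]; exact le_rfl) ?_ ?_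
  · by_contra h
    have := h7 (stabilizer G Q) (congrFun (congrArg DFunLike.coe (D.mem_normal
      (toPermHom G (Sylow 3 G)).ker fun e => h (mem_bot.1 (e ▸ Equiv.ext hg)))) Q)
    rw [hS] at this
    norm_num at this
  · obtain ⟨g, hg, e⟩ := trans Q R S hR h
    obtain ⟨w, rfl⟩ := hfQ ▸ hg
    exact ⟨w, e⟩
  · have h1 := card_rel (inf_le_left : stabilizer G Q ⊓ stabilizer G R ≤ stabilizer G Q)
    have h2 : (stabilizer G R).relIndex (stabilizer G Q) = 27 := by
      have h3 : orbit (stabilizer G Q) R = {S | S ≠ Q} := Set.ext fun S => ⟨by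
        rintro ⟨g, rfl⟩ e
        exact hR (smul_left_cancel (g : G) (e.trans g.2.symm)), fun h => by
        obtain ⟨g, hg, e⟩ := trans Q R S hR h
        exact ⟨⟨g, fix Q g hg⟩, e⟩⟩
      have h4 := index_stabilizer (stabilizer G Q) R
      rw [h3, ← Nat.card_coe_set_eq] at h4
      exact h4.trans (hn' Q)
    rw [inf_relIndex_left, hS, h2] at h1
    omega
  · obtain ⟨g, hg⟩ := exists_smul_eq G Q R
    obtain ⟨w, hw, e⟩ := trans R (g • R) Q (fun e => hR (smul_left_cancel g (e.trans hg.symm)))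
      hR.symm
    exact ⟨w * g, by rw [mul_smul, hg, fix R w hw], by rw [mul_smul, e]⟩

theorem recog {M : Type*} [Group M] [Finite M] (hG : Nat.card G = 12096) (ho : Ord G)
    (hM : Nat.card M = 12096) (hoM : Ord M) : Nonempty (G ≃* M) := by
  obtain ⟨K, hK, ⟨e⟩⟩ := exists_good' hG ho
  obtain ⟨L, hL, ⟨e'⟩⟩ := exists_good' hM hoM
  obtain rfl := hK.eq hL
  exact ⟨e.trans e'.symm⟩

end CfsgH2.G22
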