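import Cfsg.Agent.H4.OA4
import Cfsg.Agent.H5.OA1
import Cfsg.Agent.H2.QN

set_option autoImplicit false
set_option linter.unusedSectionVars false

namespace CfsgOA

open Subgroup CfsgH5 CfsgH6 CfsgFT MulAction

universe u v
variable {G : Type u} {Ω : Type v} [Group G] [Finite G] [MulAction G Ω]

theorem c2b_sy {V : Subgroup G} (hV : CfsgO5.NS V) {v c : G} (vv : v * v = 1) (hv : v ∈ N V)
    (hc : c ∈ V) (cc : c * c = 1) (c1 : c ≠ 1) (cv : c * v = v * c)
    (rk : ∀ q ∈ V, q * q = 1 → q ≠ 1 → q * v = v * q → q * c = c * q → q = c) :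
    ∃ n : G, n * v * n⁻¹ = c * v := by
  haveI := Fact.mk Nat.prime_two
  have vi : v⁻¹ = v := inv_eq_of_mul_eq_one_right vv
  have pv := isPGroup_two_zpowers_of_sq vv
  have vH : v ∈ N V ⊓ C1 c := ⟨hv, mem_C1.2 cv.symm⟩
  obtain ⟨S, h1, hS⟩ := exists_sylIn_ge (H := N V ⊓ C1 c) (zpowers_le.2 vH) pv
  have nW : Nrm (N V ⊓ C1 c) (V ⊓ C1 c) := fun a ha x hx =>
    ⟨conj_mem_of_mem_N ha.1 hx.1,
      (C1 c).mul_mem ((C1 c).mul_mem ha.2 hx.2) ((C1 c).inv_mem ha.2)⟩
  have h2 : SylIn 2 (S ⊓ (V ⊓ C1 c)) (V ⊓ C1 c) :=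
    hS.inf_nrm (inf_le_inf_right _ le_normalizer) nW
  set S0 : Subgroup G := S ⊓ (V ⊓ C1 c) with hS0
  have zN : zpowers v ≤ CfsgQ.NS (S0 : Set G) := fun a ha =>
    CfsgQ.na_NS fun x hx =>
      ⟨S.mul_mem (S.mul_mem (h1 ha) hx.1) (S.inv_mem (h1 ha)), nW a (hS.le (h1 ha)) x hx.2⟩
  have hS1 : IsPGroup 2 (zpowers v ⊔ S0 : Subgroup G) :=
    hS.isPGroup.to_le (sup_le h1 inf_le_left)
  obtain ⟨n, hn, hnY, hnN⟩ := CfsgQ.na_grow Nat.prime_two hS1
    (Y := (zpowers v ⊔ S0) ⊓ C1 v) inf_le_left (by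
      intro hle
      obtain ⟨d, hd, d2, d1, dc, cd⟩ := hV.second hc c1 cc
      obtain ⟨g, hg, hdg⟩ := h2.exists_le_cj
        (zpowers_le.2 (⟨hd, mem_C1.2 cd.symm⟩ : d ∈ V ⊓ C1 c)) (isPGroup_two_zpowers_of_sq d2)
      have h3 : g⁻¹ * d * g ∈ S0 := mem_cj.1 (hdg (mem_zpowers d))
      have h4 := rk _ h3.2.1 (by
          calc g⁻¹ * d * g * (g⁻¹ * d * g) = g⁻¹ * (d * d) * g := by group
            _ = 1 := by rw [d2]; group)
        (fun e => d1 (by
          calc d = g * (g⁻¹ * d * g) * g⁻¹ := by group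
            _ = 1 := by rw [e]; group))
        (mem_C1.1 (hle (mem_sup_right h3)).2) (mem_C1.1 h3.2.2)
      apply dc
      have h5 := mem_C1.1 hg.2
      calc d = g * (g⁻¹ * d * g) * g⁻¹ := by group
        _ = g * c * g⁻¹ := by rw [h4]
        _ = c := by rw [h5]; group)
  have vY : v ∈ (zpowers v ⊔ S0) ⊓ C1 v := ⟨mem_sup_left (mem_zpowers v), mem_C1.2 rfl⟩
  have h6 : n * v * n⁻¹ * v = v * (n * v * n⁻¹) := mem_C1.1 ((CfsgQ.mem_NS.1 hnN v).1 vY).2
  obtain ⟨a, ha, b, hb, rfl⟩ := CfsgQ.na_sup zN hn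
  have av : a * v = v * a := by
    obtain ⟨i, rfl⟩ := ha
    exact ((Commute.refl v).zpow_left i).eq
  have h7 : a * b * v * (a * b)⁻¹ * v ∈ V ⊓ C1 c := by
    have e1 : a * b * v * (a * b)⁻¹ * v = a * (b * (v * b⁻¹ * v⁻¹)) * a⁻¹ := by
      rw [vi]
      calc a * b * v * (a * b)⁻¹ * v = a * b * v * b⁻¹ * a⁻¹ * (v * a) * a⁻¹ := by group
        _ = a * b * v * b⁻¹ * a⁻¹ * (a * v) * a⁻¹ := by rw [av]
        _ = _ := by group
    rw [e1]
    exact nW a (hS.le (h1 ha)) _ (Subgroup.mul_mem _ hb.2 (nW v vH _ (Subgroup.inv_mem _ hb.2)))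
  set m := a * b * v * (a * b)⁻¹ with hm
  have mm : m * m = 1 := by
    calc m * m = a * b * (v * v) * (a * b)⁻¹ := by rw [hm]; group
      _ = 1 := by rw [vv]; group
  have h8 := rk _ h7.1 (by
      calc m * v * (m * v) = m * (v * m) * v := by group
        _ = m * (m * v) * v := by rw [h6]
        _ = (m * m) * (v * v) := by group
        _ = 1 := by rw [mm, vv, one_mul])
    (fun e => hnY ⟨hn, mem_C1.2 (by
      have e2 : m = v := by
        calc m = m * v * v := by rw [mul_assoc, vv, mul_one]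
          _ = v := by rw [e, one_mul]
      calc a * b * v = m * (a * b) := by rw [hm]; group
        _ = v * (a * b) := by rw [e2])⟩)
    (by rw [mul_assoc m v v, vv, mul_one, ← mul_assoc, ← h6, mul_assoc, vv, mul_one])
    (mem_C1.1 h7.2)
  refine ⟨a * b, ?_⟩
  rw [← hm, ← h8, mul_assoc, vv, mul_one]

theorem c2b_ns {C : Ω → Set (Subgroup G)} (hC : CF C) {x : Ω} {T : Subgroup G} (hT : T ∈ C x) :
    CfsgO5.NS T := by
  refine ⟨hC.simple x T hT, fun h => ?_⟩
  obtain ⟨a, ha, b, hb, ab⟩ := hC.nc x T hT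
  exact ab (congrArg Subtype.val (h.is_comm.comm (⟨a, ha⟩ : T) ⟨b, hb⟩))

theorem c2b_trick {U W : Subgroup G} (hU : CfsgO5.NS U) (nc : NC U) {k : G} (kk : k * k = 1)
    (cm : ∀ a ∈ U, ∀ b ∈ U, k * a * k * b = b * (k * a * k))
    (h : ∀ a ∈ U, k * a * k * a⁻¹ ∈ W) : U ≤ W := by
  have key : ∀ a ∈ U, ∀ b ∈ U, a * b * a⁻¹ * b⁻¹ ∈ W := by
    intro a ha b hb
    have h1 := W.mul_mem (W.mul_mem (W.inv_mem (h _ (U.mul_mem ha hb))) (h a ha)) (h b hb)
    have e0 : k * (a * b) * k = (k * a * k) * (k * b * k) := by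
      calc k * (a * b) * k = k * a * 1 * b * k := by group
        _ = k * a * (k * k) * b * k := by rw [kk]
        _ = _ := by group
    have e1 := cm b hb a⁻¹ (U.inv_mem ha)
    rw [e0] at h1
    convert h1 using 1
    generalize k * a * k = a' at *
    generalize k * b * k = b' at *
    calc a * b * a⁻¹ * b⁻¹ = a * b * b'⁻¹ * (b' * a⁻¹) * b⁻¹ := by group
      _ = a * b * b'⁻¹ * (a⁻¹ * b') * b⁻¹ := by rw [e1]
      _ = _ := by group
  rcases hU.nrm (K := U ⊓ W) inf_le_left (fun a ha x hx =>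
      ⟨U.mul_mem (U.mul_mem ha hx.1) (U.inv_mem ha), by
        have := W.mul_mem (key a ha x hx.1) hx.2
        simpa [mul_assoc] using this⟩) with e | e
  · obtain ⟨a, ha, b, hb, ab⟩ := nc
    exfalso
    apply ab
    have h2 : a * b * a⁻¹ * b⁻¹ ∈ U ⊓ W :=
      ⟨U.mul_mem (U.mul_mem (U.mul_mem ha hb) (U.inv_mem ha)) (U.inv_mem hb), key a ha b hb⟩
    rw [e, mem_bot] at h2
    calc a * b = (a * b * a⁻¹ * b⁻¹) * (b * a) := by group
      _ = b * a := by rw [h2, one_mul]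
  · exact fun a ha => (e.ge ha).2

/-- an involution of a component at `x` fixing `y` moves a component at `y` -/
def C2bMv (C : Ω → Set (Subgroup G)) (x y : Ω) : Prop :=
  ∃ T ∈ C x, ∃ k ∈ T, k * k = 1 ∧ k • y = y ∧ ∃ U ∈ C y, cg k U ≠ U

section
variable {C : Ω → Set (Subgroup G)} (hC : CF C)
  (ti : ∀ x y, x ≠ y → ∀ T ∈ C x, ∀ U ∈ C y, T ⊓ U = ⊥)
include hC ti

theorem c2b_own {x x' : Ω} {T T' : Subgroup G} (hT : T ∈ C x) (hT' : T' ∈ C x') {k : G}
    (hk : k ∈ T) (hk' : k ∈ T') (k1 : k ≠ 1) : x = x' ∧ T = T' := by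
  by_cases e : x = x'
  · subst e
    refine ⟨rfl, by_contra fun ne => k1 ((c2b_ns hC hT).cen hk fun b hb => ?_)⟩
    exact (hC.comm x T hT T' hT' ne b hb k hk').symm
  · exact absurd (mem_bot.1 (ti x x' e T hT T' hT' ▸ (⟨hk, hk'⟩ : k ∈ T ⊓ T'))) k1

theorem c2b_cen {x : Ω} {T : Subgroup G} (hT : T ∈ C x) {k g : G} (hk : k ∈ T) (k1 : k ≠ 1)
    (e : g * k = k * g) : g • x = x ∧ cg g T = T := by
  have h1 : k ∈ cg g T := mem_cg.2 (by
    rw [mul_assoc, ← e, inv_mul_cancel_left]; exact hk)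
  have := c2b_own hC ti hT (hC.cj g x T hT) hk h1 k1
  exact ⟨this.1.symm, this.2.symm⟩

omit hC ti in
theorem c2b_mem {U : Subgroup G} {k a : G} (kk : k * k = 1) (ha : a ∈ U) : k * a * k ∈ cg k U := by
  refine mem_cg.2 ?_
  have : k⁻¹ * (k * a * k) * k = a := by
    calc k⁻¹ * (k * a * k) * k = a * (k * k) := by group
      _ = a := by rw [kk, mul_one]
  rw [this]; exact ha

theorem c2b_strip {x y : Ω} {T U : Subgroup G} (hT : T ∈ C x) {k : G} (hk : k ∈ T)
    (kk : k * k = 1) (ky : k • y = y) (hU : U ∈ C y) (mv : cg k U ≠ U) {a : G} (ha : a ∈ U) :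
    (a * (k * a * k)) • x = x := by
  have k1 : k ≠ 1 := fun e => mv (by rw [e, cg_one])
  have cm := hC.comm y _ (hC.cj' ky hU) U hU mv _ (c2b_mem kk ha) a ha
  refine (c2b_cen hC ti hT hk k1 ?_).1
  calc a * (k * a * k) * k = a * k * a * (k * k) := by group
    _ = (k * k) * a * k * a := by rw [kk]; group
    _ = k * (k * a * k * a) := by group
    _ = k * (a * (k * a * k)) := by rw [cm]

theorem c2b_stab {x y : Ω} (xy : x ≠ y) {T U : Subgroup G} (hT : T ∈ C x) {k : G} (hk : k ∈ T)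
    (kk : k * k = 1) (ky : k • y = y) (hU : U ∈ C y) (mv : cg k U ≠ U) {u : G} (hu : u ∈ U)
    (ux : u • x = x) : u = 1 := by
  have cm : ∀ a ∈ U, ∀ b ∈ U, k * a * k * b = b * (k * a * k) := fun a ha b hb =>
    hC.comm y _ (hC.cj' ky hU) U hU mv _ (c2b_mem kk ha) b hb
  rcases (c2b_ns hC hU).nrm (K := U ⊓ stabilizer G x) inf_le_left (fun a ha w hw =>
      ⟨U.mul_mem (U.mul_mem ha hw.1) (U.inv_mem ha), by
        have h1 : a * (k * a * k) ∈ stabilizer G x := c2b_strip hC ti hT hk kk ky hU mv ha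
        have h2 := Subgroup.mul_mem _ (Subgroup.mul_mem _ h1 hw.2) (Subgroup.inv_mem _ h1)
        have e1 := cm a ha w hw.1
        have e2 : a * (k * a * k) * w * (a * (k * a * k))⁻¹ = a * w * a⁻¹ := by
          generalize k * a * k = a' at *
          calc a * a' * w * (a * a')⁻¹ = a * (a' * w) * a'⁻¹ * a⁻¹ := by group
            _ = a * (w * a') * a'⁻¹ * a⁻¹ := by rw [e1]
            _ = _ := by group
        rw [e2] at h2
        exact h2⟩) with e | e
  · exact mem_bot.1 (e ▸ (⟨hu, ux⟩ : u ∈ U ⊓ stabilizer G x))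
  · exfalso
    have fx : ∀ a ∈ U, a • x = x := fun a ha => (e.ge ha).2
    have cjm : ∀ a : G, a * k * a⁻¹ ∈ cg a T := fun a => mem_cg.2 (by simpa [mul_assoc] using hk)
    have h1 : U ≤ N T := c2b_trick (c2b_ns hC hU) (hC.nc y U hU) kk cm fun a ha => by
      have e1 : k * a * k * a⁻¹ = k * (a * k * a⁻¹) := by group
      rw [e1]
      have e2 : cg (a * k * a⁻¹) T = T := hC.cg_eq (hC.cj' (fx a ha) hT) hT (cjm a)
      refine Subgroup.mul_mem _ (le_normalizer hk) (CfsgQ.na_NS fun t ht => ?_)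
      have : (a * k * a⁻¹) * t * (a * k * a⁻¹)⁻¹ ∈ cg (a * k * a⁻¹) T :=
        mem_cg.2 (by
          have e3 : (a * k * a⁻¹)⁻¹ * ((a * k * a⁻¹) * t * (a * k * a⁻¹)⁻¹) * (a * k * a⁻¹) = t := by
            group
          rw [e3]; exact ht)
      rwa [e2] at this
    have h2 : U ≤ T := c2b_trick (c2b_ns hC hU) (hC.nc y U hU) kk cm fun a ha => by
      have e1 : k * a * k * a⁻¹ = k * (a * k * a⁻¹) := by group
      rw [e1]
      exact T.mul_mem hk (conj_mem_of_mem_N (h1 ha) hk)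
    obtain ⟨t, ht, t1⟩ := hC.exists_ne_one hU
    exact xy (c2b_own hC ti hT hU (h2 ht) ht t1).1

theorem c2b_rank {x y : Ω} (xy : x ≠ y) (mv : C2bMv C x y) {T1 : Subgroup G} (hT1 : T1 ∈ C x)
    {k1 k2 : G} (h1 : k1 ∈ T1) (h2 : k2 ∈ T1) (s1 : k1 * k1 = 1) (s2 : k2 * k2 = 1)
    (n1 : k1 ≠ 1) (n2 : k2 ≠ 1) (y1 : k1 • y = y) (y2 : k2 • y = y) (cm : k1 * k2 = k2 * k1) :
    k1 = k2 := by
  obtain ⟨T, hT, k, hk, kk, ky, U, hU, mv⟩ := mv
  have st : ∀ u ∈ U, u • x = x → u = 1 := fun u hu ux => c2b_stab hC ti xy hT hk kk ky hU mv hu ux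
  have A : ∀ l ∈ T1, l * l = 1 → l ≠ 1 → cg l U ≠ U := by
    intro l hl ll l1 e
    have lN : l ∈ N U := CfsgQ.na_NS fun t ht => by
      have : l * t * l⁻¹ ∈ cg l U := mem_cg.2 (by simpa [mul_assoc] using ht)
      rwa [e] at this
    obtain ⟨d, hd, -, d1, ld⟩ := CfsgO5.cent_inv (c2b_ns hC hU).even ll lN
    exact d1 (st d hd (c2b_cen hC ti hT1 hl l1 ld.symm).1)
  have B : ∀ l ∈ T1, l * l = 1 → l ≠ 1 → l • y = y → cg l U = cg k U := by
    intro l hl ll l1 ly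
    by_contra ne
    obtain ⟨a, ha, b, hb, ab⟩ := hC.nc y U hU
    apply ab
    have mA : a * (k * a * k) ∈ stabilizer G x := c2b_strip hC ti hT hk kk ky hU mv ha
    have mB : b * (l * b * l) ∈ stabilizer G x :=
      c2b_strip hC ti hT1 hl ll ly hU (A l hl ll l1) hb
    have c1 := hC.comm y _ (hC.cj' ky hU) U hU mv _ (c2b_mem kk ha) b hb
    have c2 := hC.comm y _ (hC.cj' ly hU) U hU (A l hl ll l1) _ (c2b_mem ll hb) a ha
    have c3 := hC.comm y _ (hC.cj' ly hU) _ (hC.cj' ky hU) ne _ (c2b_mem ll hb) _ (c2b_mem kk ha)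
    have c4 := hC.comm y _ (hC.cj' ly hU) U hU (A l hl ll l1) _ (c2b_mem ll hb) b hb
    have m := Subgroup.mul_mem _ (Subgroup.mul_mem _ (Subgroup.mul_mem _ mA mB)
      (Subgroup.inv_mem _ mA)) (Subgroup.inv_mem _ mB)
    generalize k * a * k = a' at *
    generalize l * b * l = b' at *
    have e1 : a * a' * (b * b') * (a * a')⁻¹ * (b * b')⁻¹ = a * b * a⁻¹ * b⁻¹ := by
      calc a * a' * (b * b') * (a * a')⁻¹ * (b * b')⁻¹
          = a * (a' * b) * b' * a'⁻¹ * a⁻¹ * b'⁻¹ * b⁻¹ := by group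
        _ = a * b * (a' * b') * a'⁻¹ * a⁻¹ * b'⁻¹ * b⁻¹ := by rw [c1]; group
        _ = a * b * (b' * a') * a'⁻¹ * a⁻¹ * b'⁻¹ * b⁻¹ := by rw [c3]
        _ = a * b * a⁻¹ * (a * b') * a⁻¹ * b'⁻¹ * b⁻¹ := by group
        _ = a * b * a⁻¹ * (b' * a) * a⁻¹ * b'⁻¹ * b⁻¹ := by rw [c2]
        _ = _ := by group
    rw [e1] at m
    have h3 := st _
      (U.mul_mem (U.mul_mem (U.mul_mem ha hb) (U.inv_mem ha)) (U.inv_mem hb)) m
    calc a * b = (a * b * a⁻¹ * b⁻¹) * (b * a) := by group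
      _ = b * a := by rw [h3, one_mul]
  by_contra ne
  refine A (k1 * k2) (T1.mul_mem h1 h2) ?_ ?_ ?_
  · calc k1 * k2 * (k1 * k2) = k1 * (k2 * k1) * k2 := by group
      _ = (k1 * k1) * (k2 * k2) := by rw [← cm]; group
      _ = 1 := by rw [s1, s2, one_mul]
  · intro e
    apply ne
    calc k1 = k1 * (k2 * k2) := by rw [s2, mul_one]
      _ = k2 := by rw [← mul_assoc, e, one_mul]
  · rw [← cg_cg, B k2 h2 s2 n2 y2, ← B k1 h1 s1 n1 y1, cg_cg, s1, cg_one]

omit ti in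
theorem c2b_tr (two : Two G Ω) {x y x' y' : Ω} (xy : x ≠ y) (xy' : x' ≠ y') (mv : C2bMv C x y) :
    C2bMv C x' y' := by
  obtain ⟨T, hT, k, hk, kk, ky, U, hU, mv⟩ := mv
  obtain ⟨g, rfl, rfl⟩ := two x y x' y' xy xy'
  refine ⟨cg g T, hC.cj g x T hT, g * k * g⁻¹, mem_cg.2 (by simpa [mul_assoc] using hk), ?_, ?_,
    cg g U, hC.cj g y U hU, fun e => mv (cg_inj g ?_)⟩
  · calc g * k * g⁻¹ * (g * k * g⁻¹) = g * (k * k) * g⁻¹ := by group
      _ = 1 := by rw [kk]; group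
  · rw [mul_smul, mul_smul, inv_smul_smul, ky]
  · rw [cg_cg, inv_mul_cancel_right] at e
    show cg g (cg k U) = cg g U
    rw [cg_cg, e]

theorem CF.caseII' (two : Two G Ω) {x y : Ω} (xy : x ≠ y) (mv : C2bMv C x y) : False := by
  have all : ∀ p q : Ω, p ≠ q → C2bMv C p q := fun p q pq => c2b_tr hC two xy pq mv
  obtain ⟨V, hV, c, hc, cc, cx, T, hT, mvT⟩ := all y x xy.symm
  have c1 : c ≠ 1 := fun e => mvT (by rw [e, cg_one])
  obtain ⟨b, hb, bb, b1, -⟩ := CfsgO5.cent_inv (c2b_ns hC hT).even (c := 1) (mul_one 1) (one_mem _)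
  have bi : b⁻¹ = b := inv_eq_of_mul_eq_one_right bb
  have by' : y ≠ b • y := fun e =>
    b1 (c2b_stab hC ti xy.symm hV hc cc cx hT mvT hb e.symm)
  have hT' := hC.cj' cx hT
  have cmT : ∀ a ∈ T, c * b * c * a = a * (c * b * c) := fun a ha =>
    hC.comm x _ hT' T hT mvT _ (c2b_mem cc hb) a ha
  have hv : b * c * b ∈ cg b V := c2b_mem bb hc
  have hV' := hC.cj b y V hV
  have vv : b * c * b * (b * c * b) = 1 := by
    calc b * c * b * (b * c * b) = b * c * (b * b) * c * b := by group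
      _ = b * (c * c) * b := by rw [bb]; group
      _ = 1 := by rw [cc, mul_one, bb]
  have v1 : b * c * b ≠ 1 := fun e => c1 (by
    calc c = (b * b) * c * (b * b) := by rw [bb]; group
      _ = b * (b * c * b) * b := by group
      _ = 1 := by rw [e, mul_one, bb])
  have cv : c * (b * c * b) = b * c * b * c := by
    calc c * (b * c * b) = c * b * c * b := by group
      _ = b * (c * b * c) := cmT b hb
      _ = _ := by group
  have vN : b * c * b ∈ N V := CfsgQ.na_NS fun t ht => by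
    have e := (c2b_cen hC ti hV hc c1 cv.symm).2
    have : (b * c * b) * t * (b * c * b)⁻¹ ∈ cg (b * c * b) V :=
      mem_cg.2 (by
        have e3 : (b * c * b)⁻¹ * ((b * c * b) * t * (b * c * b)⁻¹) * (b * c * b) = t := by group
        rw [e3]; exact ht)
    rwa [e] at this
  obtain ⟨n, hn⟩ := c2b_sy (c2b_ns hC hV) vv vN hc cc c1 cv fun q hq qq q1 qv qc =>
    c2b_rank hC ti by' (all _ _ by') hV hq hc qq cc q1 c1
      (c2b_cen hC ti hV' hv v1 qv).1 (c2b_cen hC ti hV' hv v1 cv).1 qc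
  have hW := hC.cj n _ _ hV'
  have hu : c * (b * c * b) ∈ cg n (cg b V) := by
    rw [← hn]; exact mem_cg.2 (by simpa [mul_assoc] using hv)
  have u1 : c * (b * c * b) ≠ 1 := fun e => v1 (by
    calc b * c * b = n⁻¹ * (n * (b * c * b) * n⁻¹) * n := by group
      _ = 1 := by rw [hn, e]; group)
  have cu : ∀ a ∈ T, a * b = b * a → a * (c * (b * c * b)) = c * (b * c * b) * a := by
    intro a ha ab
    calc a * (c * (b * c * b)) = a * (c * b * c) * b := by group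
      _ = c * b * c * a * b := by rw [cmT a ha]
      _ = c * b * c * (a * b) := by group
      _ = c * (b * c * b) * a := by rw [ab]; group
  by_cases w : x = n • b • y
  · rw [← w] at hW
    by_cases e : cg n (cg b V) = T
    · rw [e] at hu
      have h1 : c * b * c ∈ T := by
        have := T.mul_mem hu hb
        have e2 : c * (b * c * b) * b = c * b * c := by
          calc c * (b * c * b) * b = c * b * c * (b * b) := by group
            _ = _ := by rw [bb, mul_one]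
        rwa [e2] at this
      refine mvT (c2b_own hC ti hT' hT (c2b_mem cc hb) h1 fun e3 => b1 ?_).2
      calc b = (c * c) * b * (c * c) := by rw [cc]; group
        _ = c * (c * b * c) * c := by group
        _ = 1 := by rw [e3, mul_one, cc]
    · refine b1 ((c2b_ns hC hT).cen hb fun a ha => ?_)
      have h1 := hC.comm x _ hW T hT e _ hu a ha
      have h2 := cmT a ha
      have h3 : c * b * c * (b * a) = c * b * c * (a * b) := by
        calc c * b * c * (b * a) = c * (b * c * b) * a := by group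
          _ = a * (c * (b * c * b)) := h1
          _ = a * (c * b * c) * b := by group
          _ = c * b * c * a * b := by rw [h2]
          _ = _ := by group
      exact mul_left_cancel h3
  · obtain ⟨d, hd, dd, d1, db, bd⟩ := (c2b_ns hC hT).second hb b1 bb
    exact db (c2b_rank hC ti w (all _ _ w) hT hd hb dd bb d1 b1
      (c2b_cen hC ti hW hu u1 (cu d hd bd.symm)).1 (c2b_cen hC ti hW hu u1 (cu b hb rfl)).1 bd.symm)

end

theorem CF.caseII {C : Ω → Set (Subgroup G)} (two : Two G Ω) (hC : CF C)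
    (ti : ∀ x y, x ≠ y → ∀ T ∈ C x, ∀ U ∈ C y, T ⊓ U = ⊥) {x y : Ω} (xy : x ≠ y)
    {T : Subgroup G} (hT : T ∈ C x) {k : G} (hk : k ∈ T) (kk : k * k = 1) (ky : k • y = y)
    {U : Subgroup G} (hU : U ∈ C y) (mv : cg k U ≠ U) : False :=
  CF.caseII' hC ti two xy ⟨T, hT, k, hk, kk, ky, U, hU, mv⟩

end CfsgOA
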