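import Cfsg.Agent.H9.Models
import Cfsg.Agent.H9.ChainExact
import Cfsg.Agent.H9.Spectrum

/-! The doubly transitive group of degree `28` with point stabilizer `3^(1+2) : SD₁₆` is unique. -/

set_option autoImplicit false
set_option maxRecDepth 100000

namespace CfsgH2.U28

open CfsgH9

/-- The code of the identity. -/
def one : ℕ := nat_lit 1212501494925312236363414443023805295200288

/-- The model. -/
noncomputable def MM : Model (Equiv.Perm (Fin 28)) :=
  permModel 28 5 31 one (by norm_num) (by norm_num) (by decide +kernel)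

noncomputable def Q0 : NT := (.node (.node (.node (.node (.node (.leaf (nat_lit 1212501494925312236363414443023805295200288)) (.leaf (nat_lit 1192591359584439579153785247790397536181072))) (.node (.leaf (nat_lit 1206477843428642777718256898200606413055464)) (.leaf (nat_lit 1183773342778558317783693450294579309397240)))) (.node (.node (.leaf (nat_lit 1200615210482650477994019406639680534885092)) (.leaf (nat_lit 1211099674063103900177918998952028687257172))) (.leaf (nat_lit 1191797193710961314957151139179203795606668)))) (.node (.node (.node (.leaf (nat_lit 1185810168120202092819498136882629159126018)) (.leaf (nat_lit 1199856163096508329592130328610533716710002))) (.node (.leaf (nat_lit 1209822632856522236582157971751832590689642)) (.leaf (nat_lit 1193869522292916120033280748974856361853146)))) (.node (.node (.leaf (nat_lit 1195270186569929637392974520723524502448646)) (.leaf (nat_lit 1189118332771681424392183742717607075352022))) (.leaf (nat_lit 1201892252784448835804882709754276783347822)))))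 (.node (.node (.node (.node (.leaf (nat_lit 1197177301063047900624942551823880989081665)) (.leaf (nat_lit 1182372644581948109892442192734180309278481))) (.node (.leaf (nat_lit 1187210831267705501026686882047825563495753)) (.leaf (nat_lit 1205200767175126899207379168688402106203417)))) (.node (.node (.leaf (nat_lit 1190396495480157965272644209752102366164645)) (.leaf (nat_lit 1203294037502333678090155013024541026555317))) (.leaf (nat_lit 1176510011635955778579082634379531590096045)))) (.node (.node (.node (.leaf (nat_lit 1179187752133328188436471429263913483713219)) (.leaf (nat_lit 1184533126913620429256639332375611890092691))) (.leaf (nat_lit 1198455499913675350636680346726760119970091))) (.node (.node (.leaf (nat_lit 1181095602280149752112457796820750945313319)) (.leaf (nat_lit 1177787087889471657058116490840532547309975))) (.leaf (nat_lit 1207879628147563775815446040012285881393967))))))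

noncomputable def IV : NT := (.node (.node (.node (.node (.node (.leaf (nat_lit 0)) (.leaf (nat_lit 23))) (.node (.leaf (nat_lit 4)) (.leaf (nat_lit 12)))) (.node (.node (.leaf (nat_lit 8)) (.leaf (nat_lit 10))) (.leaf (nat_lit 24)))) (.node (.node (.node (.leaf (nat_lit 1)) (.leaf (nat_lit 9))) (.node (.leaf (nat_lit 20)) (.leaf (nat_lit 13)))) (.node (.node (.leaf (nat_lit 3)) (.leaf (nat_lit 17))) (.leaf (nat_lit 25))))) (.node (.node (.node (.node (.leaf (nat_lit 2)) (.leaf (nat_lit 22))) (.node (.leaf (nat_lit 18)) (.leaf (nat_lit 14)))) (.node (.node (.leaf (nat_lit 7)) (.leaf (nat_lit 15))) (.leaf (nat_lit 26)))) (.node (.node (.node (.leaf (nat_lit 6)) (.leaf (nat_lit 11))) (.leaf (nat_lit 19))) (.node (.node (.leaf (nat_lit 5)) (.leaf (nat_lit 16))) (.leaf (nat_lit 21))))))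

noncomputable def W : NT := (.node (.node (.node (.node (.node (.leaf (nat_lit 0)) (.leaf (nat_lit 11))) (.node (.leaf (nat_lit 22)) (.leaf (nat_lit 5)))) (.node (.node (.leaf (nat_lit 18)) (.leaf (nat_lit 12))) (.leaf (nat_lit 9)))) (.node (.node (.node (.leaf (nat_lit 20)) (.leaf (nat_lit 33))) (.node (.leaf (nat_lit 0)) (.leaf (nat_lit 14)))) (.node (.node (.leaf (nat_lit 21)) (.leaf (nat_lit 10))) (.leaf (nat_lit 15))))) (.node (.node (.node (.node (.leaf (nat_lit 16)) (.leaf (nat_lit 6))) (.node (.leaf (nat_lit 32)) (.leaf (nat_lit 3)))) (.node (.node (.leaf (nat_lit 23)) (.leaf (nat_lit 1))) (.leaf (nat_lit 2)))) (.node (.node (.node (.leaf (nat_lit 17)) (.leaf (nat_lit 8))) (.node (.leaf (nat_lit 4)) (.leaf (nat_lit 0)))) (.node (.node (.leaf (nat_lit 19)) (.leaf (nat_lit 7))) (.leaf (nat_lit 13))))))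

/-- The two point stabilizer. -/
def Dl : List ℕ := [nat_lit 1212501494925312236363414443023805295200288, nat_lit 1195562594456561468653351637501299527915616, nat_lit 1202929638624750641963813909793002693566592, nat_lit 1193086365935225657515834123439792107623648, nat_lit 1206968007168372490508343340121786488652864, nat_lit 1198237040284882401685463602872503690857664, nat_lit 1204165943891839254575188625802328724902144, nat_lit 1197001104603980429069103019742553911106720, nat_lit 1194240221707248622861013198774717288515616, nat_lit 1211006239307837994334370809008979899914336, nat_lit 1191685394841615497864013315485494592872576, nat_lit 1209563733809918533364657397109418355856608, nat_lit 1199814874031791580168851817080827028866112, nat_lit 1208455287182326695660561389850048538381504, nat_lit 1190243266714406170647320644014967112175872, nat_lit 1205443172295779485433724130972619623242912]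

/-- The element of order eight. -/
def hc : ℕ := nat_lit 1195562594456561468653351637501299527915616

/-- The reflection. -/
def rc : ℕ := nat_lit 1194240221707248622861013198774717288515616

/-- The swap. -/
def tc : ℕ := nat_lit 28277565090447756301994107048474662149307

theorem dg_enc (g : Equiv.Perm (Fin 28)) (i : Fin 28) : dg 5 31 (MM.enc g) i = g i :=
  permModel_dg g i

theorem enc_eq (g : Equiv.Perm (Fin 28)) : MM.enc g = pack 5 (permFn g) 28 := by
  simp only [MM, permModel, encPerm]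

/-- iterated application -/
noncomputable def iter (c n p : ℕ) : ℕ := Nat.rec (motive := fun _ => ℕ) p (fun _ ih => dg 5 31 c ih) n

theorem iter_enc (g : Equiv.Perm (Fin 28)) (n : ℕ) (p : Fin 28) :
    iter (MM.enc g) n p = (g ^ n) p := by
  induction n with
  | zero => rfl
  | succ n ih =>
    change dg 5 31 _ (iter _ n p) = _
    rw [ih, dg_enc, pow_succ', Equiv.Perm.mul_apply]

/-- choice of the orbit representative -/
noncomputable def sel (k l n : ℕ) : ℕ :=
  Bool.rec (Bool.rec l k (Nat.beq n 1)) 10 (Nat.beq n 0)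

/-- the value at `x` of the candidate -/
noncomputable def cval (i j k l x : ℕ) : ℕ :=
  iter i (Nat.mod (W.get x) 8) (iter j (Nat.mod (Nat.div (W.get x) 8) 2) (sel k l (Nat.div (W.get x) 16)))

/-- the candidate -/
noncomputable def cand (i j k l : ℕ) : ℕ :=
  pack 5 (fun x => Bool.rec (Bool.rec (cval i j k l x) 0 (Nat.beq x 27)) 27 (Nat.beq x 0)) 28

theorem cval_std : ∀ x : Fin 28, x ≠ 0 → x ≠ 27 → cval hc rc 1 9 x = x := by decide +kernel

/-- the test for membership in the two point stabilizer -/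
noncomputable def tst (g : ℕ) : Bool :=
  Bool.rec true (anyL Dl (Nat.beq g)) (band (Nat.beq (dg 5 31 g 27) 27) (Nat.beq (dg 5 31 g 0) 0))

/-- the test word -/
noncomputable def tw2 (t : ℕ) : ℕ :=
  MM.mul (Q0.get (Nat.mod (IV.get (dg 5 31 (MM.mul (MM.mul t (Q0.get 1)) t) 27)) 27))
    (MM.mul (MM.mul t (Q0.get 1)) t)

/-- the check -/
noncomputable def chk (t : ℕ) : Bool :=
  bor (Nat.beq t tc) (Bool.rec true (Bool.rec true false
    (allLt 27 fun x => Bool.rec true (tst (MM.mul (MM.mul t (tw2 t)) (Q0.get x)))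
      (Nat.beq (dg 5 31 (tw2 t) x) 27))) (tst (MM.mul t t)))

theorem chk_all : ∀ i ∈ Dl, MM.mul (MM.mul i i) (MM.mul i i) ≠ one → ∀ l : Fin 28, l ≠ 0 → l ≠ 27 → iter i 2 l = l →
    ∀ j ∈ Dl, ∀ k : Fin 28, k ≠ 0 → k ≠ 27 → iter j 1 k = k → chk (cand i j k l) = true := by
  decide +kernel

theorem norm_all : ∀ q : Fin 28, q = 0 ∨ q = 27 ∨ (∃ c ∈ Dl, c ≠ one ∧ dg 5 31 c q = q) ∨
    ∃ c ∈ Dl, dg 5 31 c q = 10 := by
  decide +kernel

theorem reg_all : ∀ c ∈ Dl, dg 5 31 c 10 = 10 → c = one := by decide +kernel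

theorem fix_all : ∀ c ∈ Dl, dg 5 31 c 27 = 27 ∧ dg 5 31 c 0 = 0 := by decide +kernel

theorem trans_all : ∀ q : Fin 28, q ≠ 27 → ∃ n, n < 27 ∧ dg 5 31 (Q0.get n) q = 0 ∧
    dg 5 31 (Q0.get n) 27 = 27 := by decide +kernel

/-- the shape of the group -/
structure Good (K : Subgroup (Equiv.Perm (Fin 28))) : Prop where
  hQ : ∀ n, n < 27 → MM.Mem K (Q0.get n)
  hD : ∀ c ∈ Dl, MM.Mem K c
  st : ∀ g ∈ K, g 27 = 27 → g 0 = 0 → MM.enc g ∈ Dl
  sw : ∃ g ∈ K, g 27 = 0 ∧ g 0 = 27

variable {K : Subgroup (Equiv.Perm (Fin 28))}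

theorem Good.tst_eq (H : Good K) {c : ℕ} (h : MM.Mem K c) : tst c = true := by
  obtain ⟨g, hg, rfl⟩ := h
  unfold tst
  cases hb : band (Nat.beq (dg 5 31 (MM.enc g) 27) 27) (Nat.beq (dg 5 31 (MM.enc g) 0) 0)
  · rfl
  · obtain ⟨h1, h2⟩ := band_iff.1 hb
    have h3 := (dg_enc g 27).symm.trans (Nat.eq_of_beq_eq_true h1)
    have h4 := (dg_enc g 0).symm.trans (Nat.eq_of_beq_eq_true h2)
    exact anyL_iff.2 ⟨_, H.st g hg (Fin.ext h3) (Fin.ext h4), Nat.beq_refl _⟩

theorem Good.eq_of_chk (H : Good K) {c : ℕ} (h : MM.Mem K c) (hc : chk c = true) : c = tc := by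
  rcases bor_iff.1 hc with h1 | h1
  · exact Nat.eq_of_beq_eq_true h1
  rw [H.tst_eq (h.mul h)] at h1
  have h2 : MM.Mem K (tw2 c) := (H.hQ _ (Nat.mod_lt _ (by norm_num))).mul
    ((h.mul (H.hQ 1 (by norm_num))).mul h)
  rw [allLt_iff.2 fun x hx => by
    rw [H.tst_eq ((h.mul h2).mul (H.hQ x hx))]
    cases Nat.beq (dg 5 31 (tw2 c) x) 27 <;> rfl] at h1
  exact absurd h1 (by decide)

theorem Good.exists_norm (H : Good K) : ∃ g ∈ K, g 27 = 0 ∧ g 0 = 27 ∧ g 10 = 10 := by
  obtain ⟨g, hg, h1, h2⟩ := H.sw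
  rcases norm_all (g 10) with h | h | ⟨c, hc, h3, h4⟩ | ⟨c, hc, h3⟩
  · exact absurd (g.injective (h.trans h1.symm)) (by decide)
  · exact absurd (g.injective (h.trans h2.symm)) (by decide)
  · obtain ⟨d, hd, rfl⟩ := H.hD c hc
    obtain ⟨h5, h6⟩ := fix_all _ hc
    have h5 : d 27 = 27 := Fin.ext ((dg_enc d 27).symm.trans h5)
    have h6 : d 0 = 0 := Fin.ext ((dg_enc d 0).symm.trans h6)
    have h4 : d (g 10) = g 10 := Fin.ext ((dg_enc d _).symm.trans h4)
    have h7 := reg_all _ (H.st (g⁻¹ * d * g) (mul_mem (mul_mem (inv_mem hg) hd) hg)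
      (by simp [h1, h6, h2, Equiv.symm_apply_eq]) (by simp [h1, h2, h5, Equiv.symm_apply_eq]))
      ((dg_enc _ 10).trans (by simp [h4]))
    have h8 : g⁻¹ * d * g = 1 := MM.enc_inj (h7.trans MM.enc_one.symm)
    refine absurd ?_ h3
    rw [show d = 1 by simpa [mul_assoc, inv_mul_eq_one] using h8]
    exact MM.enc_one
  · obtain ⟨d, hd, rfl⟩ := H.hD c hc
    obtain ⟨h5, h6⟩ := fix_all _ hc
    have h5 : d 27 = 27 := Fin.ext ((dg_enc d 27).symm.trans h5)
    have h6 : d 0 = 0 := Fin.ext ((dg_enc d 0).symm.trans h6)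
    exact ⟨d * g, mul_mem hd hg, by simp [h1, h6], by simp [h2, h5],
      Fin.ext ((dg_enc d _).symm.trans h3)⟩

theorem Good.mem_tc (H : Good K) : MM.Mem K tc := by
  obtain ⟨g, hg, h1, h2, h3⟩ := H.exists_norm
  obtain ⟨h, hh, eh⟩ := H.hD hc (by decide +kernel)
  obtain ⟨r, hr, er⟩ := H.hD rc (by decide +kernel)
  have key : ∀ d ∈ K, MM.enc d ∈ Dl → MM.enc (g * d * g⁻¹) ∈ Dl := fun d hd h4 => by
    obtain ⟨h5, h6⟩ := fix_all _ h4
    have h5 : d 27 = 27 := Fin.ext ((dg_enc d 27).symm.trans h5)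
    have h6 : d 0 = 0 := Fin.ext ((dg_enc d 0).symm.trans h6)
    refine H.st _ (mul_mem (mul_mem hg hd) (inv_mem hg)) ?_ ?_
    · rw [← h2]; simp [h6]
    · rw [show (g * d * g⁻¹) 0 = (g * d * g⁻¹) (g 27) by rw [h1], Equiv.Perm.mul_apply,
        Equiv.Perm.mul_apply, show g⁻¹ (g 27) = 27 from g.symm_apply_apply 27, h5, h1]
  have it : ∀ (d : Equiv.Perm (Fin 28)) (n : ℕ) (p : Fin 28),
      iter (MM.enc (g * d * g⁻¹)) n (g p) = g ((d ^ n) p) := fun d n p => by
    rw [iter_enc, conj_pow]; simp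
  have it' : ∀ (d : Equiv.Perm (Fin 28)) (n : ℕ) (p q : Fin 28), iter (MM.enc d) n p = q →
      (d ^ n) p = q := fun d n p q e => Fin.ext ((iter_enc d n p).symm.trans e)
  have ne : ∀ p : Fin 28, p ≠ 27 → p ≠ 0 → g p ≠ 0 ∧ g p ≠ 27 := fun p a b =>
    ⟨fun e => a (g.injective (e.trans h1.symm)), fun e => b (g.injective (e.trans h2.symm))⟩
  have h4 := chk_all _ (key h hh (eh ▸ by decide +kernel)) (by
      rw [← MM.enc_mul, ← MM.enc_mul]
      intro e
      have e1 : g * (h * h * (h * h)) * g⁻¹ = 1 := by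
        rw [← MM.enc_inj (e.trans MM.enc_one.symm)]; group
      have e2 := congrArg MM.enc (show h * h * (h * h) = 1 by simpa [mul_inv_eq_one] using e1)
      rw [MM.enc_mul, MM.enc_mul, eh, MM.enc_one] at e2
      exact absurd e2 (by decide +kernel))
    (g 9) (ne 9 (by decide) (by decide)).1 (ne 9 (by decide) (by decide)).2
    (by rw [it, it' h 2 9 9 (by rw [eh]; decide +kernel)])
    _ (key r hr (er ▸ by decide +kernel)) (g 1) (ne 1 (by decide) (by decide)).1
    (ne 1 (by decide) (by decide)).2 (by rw [it, it' r 1 1 1 (by rw [er]; decide +kernel)])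
  have h5 : MM.enc g = cand (MM.enc (g * h * g⁻¹)) (MM.enc (g * r * g⁻¹)) (g 1) (g 9) := by
    rw [enc_eq, cand]
    refine pack_congr fun x hx => ?_
    have e0 := permFn_coe g ⟨x, hx⟩
    refine e0.trans ?_
    by_cases a : x = 0
    · subst a; exact congrArg Fin.val h2
    by_cases b : x = 27
    · subst b; exact congrArg Fin.val h1
    have nb : ∀ u v : ℕ, u ≠ v → Nat.beq u v = false := fun u v e => by
      cases hb : Nat.beq u v
      · rfl
      · exact absurd (Nat.eq_of_beq_eq_true hb) e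
    rw [nb _ _ a, nb _ _ b]
    have e1 := cval_std ⟨x, hx⟩ (fun e => a (congrArg Fin.val e)) (fun e => b (congrArg Fin.val e))
    obtain ⟨p, e2, e3⟩ : ∃ p : Fin 28, sel 1 9 (Nat.div (W.get x) 16) = p ∧
        sel (g 1) (g 9) (Nat.div (W.get x) 16) = g p := by
      unfold sel
      cases Nat.beq (Nat.div (W.get x) 16) 0
      · cases Nat.beq (Nat.div (W.get x) 16) 1
        · exact ⟨9, rfl, rfl⟩
        · exact ⟨1, rfl, rfl⟩
      · exact ⟨10, rfl, congrArg Fin.val h3.symm⟩
    change _ = cval _ _ _ _ x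
    change cval _ _ _ _ x = x at e1
    unfold cval at e1 ⊢
    rw [e2, ← eh, ← er, iter_enc, iter_enc] at e1
    rw [e3, it, it]
    exact congrArg (fun y => (g y).val) (Fin.ext e1.symm)
  rw [← h5] at h4
  exact ⟨g, hg, H.eq_of_chk ⟨g, hg, rfl⟩ h4⟩

theorem Good.le {L : Subgroup (Equiv.Perm (Fin 28))} (H : Good K) (H' : Good L) : K ≤ L := by
  have key : ∀ c, MM.Mem K c → MM.Mem L c → ∃ g ∈ K, g ∈ L ∧ MM.enc g = c :=
    fun c ⟨g, hg, e⟩ h => ⟨g, hg, Model.mem_of_Mem (e ▸ h), e⟩
  have h1 : ∀ g ∈ K, ∀ p, g p ≠ 27 → ∃ q ∈ K, q ∈ L ∧ q (g p) = 0 ∧ q 27 = 27 := fun g _ p h => by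
    obtain ⟨n, hn, h2, h3⟩ := trans_all _ h
    obtain ⟨q, hq, hq', e⟩ := key _ (H.hQ n hn) (H'.hQ n hn)
    rw [← e] at h2 h3
    exact ⟨q, hq, hq', Fin.ext ((dg_enc q _).symm.trans h2), Fin.ext ((dg_enc q 27).symm.trans h3)⟩
  have h2 : ∀ g ∈ K, g 27 = 27 → g ∈ L := fun g hg h => by
    obtain ⟨q, hq, hq', e1, e2⟩ := h1 g hg 0 fun e => absurd (g.injective (e.trans h.symm)) (by decide)
    have := Model.mem_of_Mem (H'.hD _ (H.st (q * g) (mul_mem hq hg) (by simp [h, e2]) e1))
    simpa using mul_mem (inv_mem hq') this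
  intro g hg
  by_cases h : g 27 = 27
  · exact h2 g hg h
  obtain ⟨q, hq, hq', e1, -⟩ := h1 g hg 27 h
  obtain ⟨t, ht, ht', e⟩ := key _ H.mem_tc H'.mem_tc
  have e2 : t 0 = 27 := Fin.ext ((dg_enc t 0).symm.trans (by rw [e]; decide +kernel))
  have := h2 (t * q * g) (mul_mem (mul_mem ht hq) hg) (by simp [e1, e2])
  exact (mul_mem_cancel_left (mul_mem ht' hq')).1 this

theorem Good.eq {L : Subgroup (Equiv.Perm (Fin 28))} (H : Good K) (H' : Good L) : K = L :=
  le_antisymm (H.le H') (H'.le H)

end CfsgH2.U28
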